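/-
Section form of the transfer homomorphism: independence of the section, transitivity,
orbit decomposition.  Basis of the Wielandt–Yoshida argument.
-/
import Mathlib

set_option autoImplicit false

namespace Cfsg.Agent.Lib.Yoshida

open scoped Pointwise

universe u v

variable {G : Type u} [Group G] {A : Type v} [CommGroup A]

/-- Total extension of a homomorphism on a subgroup. -/
noncomputable def ext {H : Subgroup G} (ϕ : H →* A) (x : G) : A :=
  open Classical in if h : x ∈ H then ϕ ⟨x, h⟩ else 1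

theorem ext_of_mem {H : Subgroup G} (ϕ : H →* A) {x : G} (h : x ∈ H) : ext ϕ x = ϕ ⟨x, h⟩ := by
  simp [ext, h]

theorem ext_coe {H : Subgroup G} (ϕ : H →* A) (x : H) : ext ϕ (x : G) = ϕ x := by
  rw [ext_of_mem ϕ x.2]

theorem ext_mul {H : Subgroup G} (ϕ : H →* A) {x y : G} (hx : x ∈ H) (hy : y ∈ H) :
    ext ϕ (x * y) = ext ϕ x * ext ϕ y := by
  rw [ext_of_mem ϕ (H.mul_mem hx hy), ext_of_mem ϕ hx, ext_of_mem ϕ hy, ← map_mul]; rfl

theorem ext_one {H : Subgroup G} (ϕ : H →* A) : ext ϕ (1 : G) = 1 := by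
  rw [ext_of_mem ϕ H.one_mem]; exact map_one ϕ

theorem coc_mem {H : Subgroup G} (t : G ⧸ H → G) (ht : ∀ q, (t q : G ⧸ H) = q) (g : G) (q : G ⧸ H) :
    (t (g • q))⁻¹ * g * t q ∈ H := by
  rw [mul_assoc, ← QuotientGroup.eq, ht]
  have : ((g * t q : G) : G ⧸ H) = g • ((t q : G) : G ⧸ H) := rfl
  rw [this, ht]

/-- The transfer computed with an arbitrary section. -/
theorem transfer_eq_prod {H : Subgroup G} (ϕ : H →* A) [H.FiniteIndex] [Fintype (G ⧸ H)]
    (t : G ⧸ H → G) (ht : ∀ q, (t q : G ⧸ H) = q) (g : G) :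
    ϕ.transfer g = ∏ q : G ⧸ H, ext ϕ ((t (g • q))⁻¹ * g * t q) := by
  classical
  let T : H.LeftTransversal := ⟨Set.range t, Subgroup.isComplement_range_left ht⟩
  rw [MonoidHom.transfer_def ϕ T g]
  unfold Subgroup.leftTransversals.diff
  simp only
  have hinst : (H.fintypeQuotientOfFiniteIndex) = ‹Fintype (G ⧸ H)› := Subsingleton.elim _ _
  rw [hinst]
  refine Fintype.prod_equiv (MulAction.toPerm g).symm _ _ fun q => ?_
  have h1 : ((T.2.leftQuotientEquiv q : T.1) : G) = t q :=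
    Subgroup.IsComplement.leftQuotientEquiv_apply ht q
  have h2 : (((g • T).2.leftQuotientEquiv q : (g • T).1) : G) = g * t (g⁻¹ • q) := by
    rw [Subgroup.smul_apply_eq_smul_apply_inv_smul]
    have h3 : ((T.2.leftQuotientEquiv (g⁻¹ • q) : T.1) : G) = t (g⁻¹ • q) :=
      Subgroup.IsComplement.leftQuotientEquiv_apply ht _
    rw [← h3]; rfl
  have hmem := coc_mem t ht g (g⁻¹ • q)
  rw [smul_inv_smul] at hmem
  rw [ext_of_mem ϕ (by simpa using hmem)]
  congr 1
  apply Subtype.ext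
  simp [h1, h2, mul_assoc]


/-- The canonical section. -/
theorem out_section {H : Subgroup G} (q : G ⧸ H) : ((q.out : G) : G ⧸ H) = q := QuotientGroup.out_eq' q

/-- Transfer is multiplicative in the homomorphism. -/
theorem transfer_mul_hom {H : Subgroup G} (ϕ ψ : H →* A) [H.FiniteIndex] (g : G) :
    (ϕ * ψ).transfer g = ϕ.transfer g * ψ.transfer g := by
  classical
  letI := H.fintypeQuotientOfFiniteIndex
  rw [transfer_eq_prod ϕ _ out_section, transfer_eq_prod ψ _ out_section,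
    transfer_eq_prod (ϕ * ψ) _ out_section, ← Finset.prod_mul_distrib]
  refine Finset.prod_congr rfl fun q _ => ?_
  have h := coc_mem (H := H) _ out_section g q
  rw [ext_of_mem _ h, ext_of_mem _ h, ext_of_mem _ h]; rfl

theorem transfer_pow_eq_one {H : Subgroup G} (ϕ : H →* A) [H.FiniteIndex] {n : ℕ}
    (h : ∀ x, ϕ x ^ n = 1) (g : G) : (ϕ.transfer g) ^ n = 1 := by
  classical
  letI := H.fintypeQuotientOfFiniteIndex
  rw [transfer_eq_prod ϕ _ out_section, ← Finset.prod_pow]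
  refine Finset.prod_eq_one fun q _ => ?_
  rw [ext_of_mem _ (coc_mem (H := H) _ out_section g q)]
  exact h _

theorem transfer_one_hom {H : Subgroup G} [H.FiniteIndex] (g : G) :
    (1 : H →* A).transfer g = 1 := by
  classical
  letI := H.fintypeQuotientOfFiniteIndex
  rw [transfer_eq_prod (1 : H →* A) _ out_section]
  refine Finset.prod_eq_one fun q _ => ?_
  rw [ext_of_mem _ (coc_mem (H := H) _ out_section g q)]
  rfl

/-- Vanishing of the transfer from the explicit orbit formula. -/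
theorem transfer_eq_one_of {H : Subgroup G} (ϕ : H →* A) [H.FiniteIndex] (g : G)
    (h : ∀ (k : ℕ) (s : G) (hm : s⁻¹ * g ^ k * s ∈ H), ϕ ⟨_, hm⟩ = 1) : ϕ.transfer g = 1 := by
  classical
  letI : Fintype (Quotient (MulAction.orbitRel (Subgroup.zpowers g) (G ⧸ H))) := Fintype.ofFinite _
  rw [MonoidHom.transfer_eq_prod_quotient_orbitRel_zpowers_quot]
  exact Finset.prod_eq_one fun q _ => h _ _ _

/-- Transitivity of the transfer. -/
theorem transfer_trans {Q R : Subgroup G} (hQR : Q ≤ R) [Finite G] (ε : Q →* A) (g : G) :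
    ε.transfer g =
      (MonoidHom.transfer (H := Q.subgroupOf R)
        (ε.comp (Subgroup.subgroupOfEquivOfLe hQR).toMonoidHom)).transfer g := by
  classical
  letI : Fintype (G ⧸ Q) := Fintype.ofFinite _
  letI : Fintype (G ⧸ R) := Fintype.ofFinite _
  letI : Fintype (↥R ⧸ Q.subgroupOf R) := Fintype.ofFinite _
  set ε' : (Q.subgroupOf R) →* A := ε.comp (Subgroup.subgroupOfEquivOfLe hQR).toMonoidHom with hε'
  let t₁ : G ⧸ R → G := fun q => q.out
  have ht₁ : ∀ q, ((t₁ q : G) : G ⧸ R) = q := out_section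
  let t₂ : ↥R ⧸ Q.subgroupOf R → ↥R := fun q => q.out
  have ht₂ : ∀ q, ((t₂ q : ↥R) : ↥R ⧸ Q.subgroupOf R) = q := out_section
  let J : (G ⧸ R) × (↥R ⧸ Q.subgroupOf R) → G ⧸ Q := fun x => ((t₁ x.1 * (t₂ x.2 : G) : G) : G ⧸ Q)
  have hJ : Function.Bijective J := by
    constructor
    · rintro ⟨a, r⟩ ⟨a', r'⟩ h
      have h1 : (t₁ a * (t₂ r : G))⁻¹ * (t₁ a' * (t₂ r' : G)) ∈ Q := QuotientGroup.eq.mp h
      have h2 : (t₁ a * (t₂ r : G))⁻¹ * (t₁ a' * (t₂ r' : G)) ∈ R := hQR h1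
      have h3 : (t₁ a)⁻¹ * t₁ a' ∈ R := by
        have : (t₁ a)⁻¹ * t₁ a' = (t₂ r : G) * ((t₁ a * (t₂ r : G))⁻¹ * (t₁ a' * (t₂ r' : G))) * (t₂ r' : G)⁻¹ := by
          group
        rw [this]
        exact R.mul_mem (R.mul_mem (t₂ r).2 h2) (R.inv_mem (t₂ r').2)
      have haa : a = a' := by
        rw [← ht₁ a, ← ht₁ a']
        exact QuotientGroup.eq.mpr h3
      subst haa
      have h4 : (t₂ r : G)⁻¹ * (t₂ r' : G) ∈ Q := by
        have : (t₂ r : G)⁻¹ * (t₂ r' : G) = (t₁ a * (t₂ r : G))⁻¹ * (t₁ a * (t₂ r' : G)) := by group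
        rw [this]; exact h1
      have hrr : r = r' := by
        rw [← ht₂ r, ← ht₂ r']
        refine QuotientGroup.eq.mpr ?_
        rw [Subgroup.mem_subgroupOf]
        simpa using h4
      rw [hrr]
    · intro q
      induction q using QuotientGroup.induction_on with
      | H g =>
        set a : G ⧸ R := (g : G ⧸ R)
        have h1 : (t₁ a)⁻¹ * g ∈ R := QuotientGroup.eq.mp (ht₁ a)
        let y : ↥R := ⟨(t₁ a)⁻¹ * g, h1⟩
        refine ⟨(a, (y : ↥R ⧸ Q.subgroupOf R)), ?_⟩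
        have h2 : (t₂ (y : ↥R ⧸ Q.subgroupOf R))⁻¹ * y ∈ Q.subgroupOf R :=
          QuotientGroup.eq.mp (ht₂ _)
        rw [Subgroup.mem_subgroupOf] at h2
        refine QuotientGroup.eq.mpr ?_
        have h3 : (t₁ a * (t₂ (y : ↥R ⧸ Q.subgroupOf R) : G))⁻¹ * g =
            (((t₂ (y : ↥R ⧸ Q.subgroupOf R))⁻¹ * y : ↥R) : G) := by
          simp [y, mul_assoc]
        rw [h3]; exact h2
  let Je := Equiv.ofBijective J hJ
  let t : G ⧸ Q → G := fun q => t₁ (Je.symm q).1 * (t₂ (Je.symm q).2 : G)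
  have ht : ∀ q, ((t q : G) : G ⧸ Q) = q := fun q => by
    have : J (Je.symm q) = q := Je.apply_symm_apply q
    exact this
  have ht_J : ∀ x, t (J x) = t₁ x.1 * (t₂ x.2 : G) := fun x => by
    have : Je.symm (J x) = x := Je.symm_apply_apply x
    simp only [t, this]
  -- the cocycle of the outer section lies in `R`
  let hh : G ⧸ R → ↥R := fun a =>
    ⟨(t₁ (g • a))⁻¹ * g * t₁ a, coc_mem t₁ ht₁ g a⟩
  have hact : ∀ x : (G ⧸ R) × (↥R ⧸ Q.subgroupOf R),
      g • J x = J (g • x.1, hh x.1 • x.2) := by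
    rintro ⟨a, r⟩
    have h1 : (t₂ (hh a • r))⁻¹ * (hh a) * t₂ r ∈ Q.subgroupOf R := coc_mem t₂ ht₂ (hh a) r
    rw [Subgroup.mem_subgroupOf] at h1
    show ((g * (t₁ a * (t₂ r : G)) : G) : G ⧸ Q) = ((t₁ (g • a) * (t₂ (hh a • r) : G) : G) : G ⧸ Q)
    refine (QuotientGroup.eq.mpr ?_).symm
    have : (t₁ (g • a) * (t₂ (hh a • r) : G))⁻¹ * (g * (t₁ a * (t₂ r : G))) =
        (((t₂ (hh a • r))⁻¹ * (hh a) * t₂ r : ↥R) : G) := by
      simp [hh, mul_assoc]
    rw [this]; exact h1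
  rw [transfer_eq_prod ε t ht, transfer_eq_prod (MonoidHom.transfer ε') t₁ ht₁]
  rw [← Je.prod_comp]
  rw [Fintype.prod_prod_type]
  refine Finset.prod_congr rfl fun a _ => ?_
  rw [ext_of_mem _ (coc_mem t₁ ht₁ g a), transfer_eq_prod ε' t₂ ht₂]
  refine Finset.prod_congr rfl fun r _ => ?_
  have hm : (t₂ (hh a • r))⁻¹ * (hh a) * t₂ r ∈ Q.subgroupOf R := coc_mem t₂ ht₂ (hh a) r
  have hm' : (((t₂ (hh a • r))⁻¹ * (hh a) * t₂ r : ↥R) : G) ∈ Q := hm
  have key : (t (g • Je (a, r)))⁻¹ * g * t (Je (a, r)) = (((t₂ (hh a • r))⁻¹ * (hh a) * t₂ r : ↥R) : G) := by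
    have e1 : Je (a, r) = J (a, r) := rfl
    rw [e1, hact, ht_J, ht_J]
    simp [hh, mul_assoc]
  rw [key, ext_of_mem _ hm', ext_of_mem ε' hm]
  rfl


/-- Transfer of a restriction. -/
theorem transfer_comp_subtype {H : Subgroup G} (l : G →* A) [H.FiniteIndex] (g : G) :
    (l.comp H.subtype).transfer g = l g ^ H.index := by
  classical
  letI := H.fintypeQuotientOfFiniteIndex
  rw [transfer_eq_prod (l.comp H.subtype) _ out_section]
  have h1 : ∀ q : G ⧸ H, ext (l.comp H.subtype) (((g • q).out : G)⁻¹ * g * q.out) =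
      l g * (l (q.out) * (l ((g • q).out))⁻¹) := fun q => by
    rw [ext_of_mem _ (coc_mem (H := H) _ out_section g q)]
    simp only [MonoidHom.comp_apply, Subgroup.subtype_apply, map_mul, map_inv]
    rw [mul_comm (l _)⁻¹, mul_assoc, mul_comm (l _)⁻¹]
  rw [Finset.prod_congr rfl (fun q _ => h1 q), Finset.prod_mul_distrib, Finset.prod_mul_distrib,
    Finset.prod_inv_distrib]
  have h2 : ∏ q : G ⧸ H, l ((g • q).out) = ∏ q : G ⧸ H, l (q.out) :=
    Fintype.prod_equiv (MulAction.toPerm g) _ _ (fun _ => rfl)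
  rw [h2, mul_inv_cancel, mul_one, Finset.prod_const, Subgroup.index_eq_card]
  simp [Nat.card_eq_fintype_card]

/-- The transfer to a normal subgroup of prime index, on the subgroup itself. -/
theorem transfer_norm_prime {R : Subgroup G} [R.Normal] [Finite G] {p : ℕ} (hp : p.Prime)
    (hidx : R.index = p) {z : G} (hz : z ∉ R) (μ : R →* A) {y : G} (hy : y ∈ R) :
    μ.transfer y = ∏ i ∈ Finset.range p, ext μ ((z ^ i)⁻¹ * y * z ^ i) := by
  classical
  letI : Fintype (G ⧸ R) := Fintype.ofFinite _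
  haveI : Fact p.Prime := ⟨hp⟩
  let J : Fin p → G ⧸ R := fun i => ((z ^ (i : ℕ) : G) : G ⧸ R)
  have hzp : ∀ i : ℕ, z ^ i ∈ R → p ∣ i := by
    intro i hi
    by_contra hnd
    have hcop : Nat.Coprime i p := ((Nat.Prime.coprime_iff_not_dvd hp).mpr hnd).symm
    obtain ⟨a, b, hab⟩ : ∃ a b : ℤ, (i : ℤ) * a + (p : ℤ) * b = 1 := by
      refine ⟨Nat.gcdA i p, Nat.gcdB i p, ?_⟩
      have := Nat.gcd_eq_gcd_ab i p
      rw [hcop] at this
      push_cast at this
      linarith
    have hq : ((z : G) : G ⧸ R) ^ p = 1 := by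
      have hcard : Nat.card (G ⧸ R) = p := by rw [← Subgroup.index_eq_card, hidx]
      rw [← hcard]; exact pow_card_eq_one'
    have hzpR : z ^ p ∈ R := by
      rw [← QuotientGroup.eq_one_iff, QuotientGroup.mk_pow, hq]
    have : z = (z ^ i) ^ a * (z ^ p) ^ b := by
      rw [← zpow_natCast, ← zpow_natCast, ← zpow_mul, ← zpow_mul, ← zpow_add, hab, zpow_one]
    rw [this] at hz
    exact hz (R.mul_mem (R.zpow_mem hi a) (R.zpow_mem hzpR b))
  have hJinj : Function.Injective J := by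
    intro i j hij
    wlog hle : (i : ℕ) ≤ j generalizing i j
    · exact (this hij.symm (le_of_not_ge hle)).symm
    have h1 : (z ^ (i : ℕ))⁻¹ * z ^ (j : ℕ) ∈ R := QuotientGroup.eq.mp hij
    have h2 : (z ^ (i : ℕ))⁻¹ * z ^ (j : ℕ) = z ^ ((j : ℕ) - i) := by
      rw [inv_mul_eq_iff_eq_mul, ← pow_add]; congr 1; omega
    rw [h2] at h1
    have h3 := hzp _ h1
    have h4 : (j : ℕ) - i < p := by have := j.2; omega
    have h5 : (j : ℕ) - i = 0 := Nat.eq_zero_of_dvd_of_lt h3 h4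
    apply Fin.ext; omega
  have hcard : Fintype.card (Fin p) = Fintype.card (G ⧸ R) := by
    rw [Fintype.card_fin, ← Nat.card_eq_fintype_card, ← Subgroup.index_eq_card, hidx]
  have hJbij : Function.Bijective J := (Fintype.bijective_iff_injective_and_card J).mpr ⟨hJinj, hcard⟩
  let Je := Equiv.ofBijective J hJbij
  let t : G ⧸ R → G := fun q => z ^ ((Je.symm q : Fin p) : ℕ)
  have ht : ∀ q, ((t q : G) : G ⧸ R) = q := fun q => Je.apply_symm_apply q
  have hfix : ∀ q : G ⧸ R, y • q = q := fun q => by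
    induction q using QuotientGroup.induction_on with
    | H g =>
      refine (QuotientGroup.eq.mpr ?_).symm
      have : g⁻¹ * (y * g) = g⁻¹ * y * g⁻¹⁻¹ := by simp [mul_assoc]
      show g⁻¹ * (y * g) ∈ R
      rw [this]
      exact Subgroup.Normal.conj_mem inferInstance y hy g⁻¹
  rw [transfer_eq_prod μ t ht, ← Je.prod_comp]
  have h : ∀ i : Fin p, ext μ ((t (y • Je i))⁻¹ * y * t (Je i)) = ext μ ((z ^ (i : ℕ))⁻¹ * y * z ^ (i : ℕ)) := by
    intro i
    have : t (Je i) = z ^ (i : ℕ) := by simp [t]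
    rw [hfix, this]
  rw [Finset.prod_congr rfl (fun i _ => h i)]
  exact Fin.prod_univ_eq_prod_range (fun i => ext μ ((z ^ i)⁻¹ * y * z ^ i)) p

section Orbit

variable {P : Type u} [Group P] {Ω : Type v} [MulAction P Ω] {B : Type*} [CommGroup B]

/-- The homomorphism on a stabilizer given by a cocycle. -/
def stabHom (κ : P → Ω → B) (hκ : ∀ g h ω, κ (g * h) ω = κ g (h • ω) * κ h ω) (ω : Ω) :
    MulAction.stabilizer P ω →* B where
  toFun v := κ v ω
  map_one' := by
    have := hκ 1 1 ω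
    simpa using this
  map_mul' v w := by
    have := hκ v w ω
    have hw : (w : P) • ω = ω := w.2
    rw [hw] at this
    exact this

/-- The product of a cocycle over an orbit is the transfer of the restriction to the stabilizer. -/
theorem prod_orbit_eq_transfer [Finite P] [Fintype Ω] [DecidableEq Ω]
    [Fintype (MulAction.orbitRel.Quotient P Ω)]
    (κ : P → Ω → B) (hκ : ∀ g h ω, κ (g * h) ω = κ g (h • ω) * κ h ω) (u : P) :
    ∏ ω : Ω, κ u ω = ∏ O : MulAction.orbitRel.Quotient P Ω,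
      (stabHom κ hκ (Quotient.out O)).transfer u := by
  classical
  rw [← Finset.prod_fiberwise Finset.univ
    (fun ω => (Quotient.mk (MulAction.orbitRel P Ω) ω : MulAction.orbitRel.Quotient P Ω))]
  refine Finset.prod_congr rfl fun O _ => ?_
  set ω₀ : Ω := Quotient.out O with hω₀
  letI : Fintype (P ⧸ MulAction.stabilizer P ω₀) := Fintype.ofFinite _
  let t : P ⧸ MulAction.stabilizer P ω₀ → P := fun q => q.out
  have ht : ∀ q, ((t q : P) : P ⧸ MulAction.stabilizer P ω₀) = q := out_section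
  rw [transfer_eq_prod (stabHom κ hκ ω₀) t ht]
  -- the orbit map
  let I : P ⧸ MulAction.stabilizer P ω₀ → { ω : Ω // Quotient.mk (MulAction.orbitRel P Ω) ω = O } :=
    fun r => ⟨t r • ω₀, by
      have h1 : (Quotient.mk (MulAction.orbitRel P Ω) (t r • ω₀) : MulAction.orbitRel.Quotient P Ω) =
          Quotient.mk (MulAction.orbitRel P Ω) ω₀ := by
        refine Quotient.sound ?_
        exact ⟨t r, rfl⟩
      rw [h1, hω₀]; exact Quotient.out_eq O⟩
  have hI : Function.Bijective I := by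
    constructor
    · intro r r' h
      have h1 : t r • ω₀ = t r' • ω₀ := congrArg Subtype.val h
      have h2 : (t r)⁻¹ * t r' ∈ MulAction.stabilizer P ω₀ := by
        rw [MulAction.mem_stabilizer_iff, mul_smul, ← h1, inv_smul_smul]
      rw [← ht r, ← ht r']
      exact QuotientGroup.eq.mpr h2
    · rintro ⟨ω, hω⟩
      have h1 : (Quotient.mk (MulAction.orbitRel P Ω) ω : MulAction.orbitRel.Quotient P Ω) =
          Quotient.mk (MulAction.orbitRel P Ω) ω₀ := by
        rw [hω, hω₀]; exact (Quotient.out_eq O).symm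
      obtain ⟨g, hg⟩ : ω ∈ MulAction.orbit P ω₀ := Quotient.exact h1
      refine ⟨(g : P ⧸ MulAction.stabilizer P ω₀), Subtype.ext ?_⟩
      have h2 : g⁻¹ * t (g : P ⧸ MulAction.stabilizer P ω₀) ∈ MulAction.stabilizer P ω₀ :=
        QuotientGroup.eq.mp (ht _).symm
      have h3 : t (g : P ⧸ MulAction.stabilizer P ω₀) • ω₀ = g • ω₀ := by
        have := MulAction.mem_stabilizer_iff.mp h2
        rw [mul_smul, inv_smul_eq_iff] at this
        exact this
      show t (g : P ⧸ MulAction.stabilizer P ω₀) • ω₀ = ω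
      rw [h3]; exact hg
  let Ie := Equiv.ofBijective I hI
  have hfib : ∏ ω with Quotient.mk (MulAction.orbitRel P Ω) ω = O, κ u ω =
      ∏ r : P ⧸ MulAction.stabilizer P ω₀, κ u (t r • ω₀) := by
    rw [Finset.prod_subtype (p := fun ω => Quotient.mk (MulAction.orbitRel P Ω) ω = O)
      (Finset.univ.filter fun ω => Quotient.mk (MulAction.orbitRel P Ω) ω = O) (by simp) (fun ω => κ u ω)]
    exact (Ie.prod_comp (fun ω : { ω : Ω // Quotient.mk (MulAction.orbitRel P Ω) ω = O } => κ u ω.1)).symm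
  rw [hfib]
  -- the coboundary
  let b : P ⧸ MulAction.stabilizer P ω₀ → B := fun r => κ (t r) ω₀
  have hkey : ∀ r, κ u (t r • ω₀) =
      b (u • r) * ext (stabHom κ hκ ω₀) ((t (u • r))⁻¹ * u * t r) * (b r)⁻¹ := by
    intro r
    have hm := coc_mem t ht u r
    rw [ext_of_mem _ hm]
    have h1 : κ (u * t r) ω₀ = κ u (t r • ω₀) * b r := hκ u (t r) ω₀
    have h2 : u * t r = t (u • r) * ((t (u • r))⁻¹ * u * t r) := by group
    have hmem : ((t (u • r))⁻¹ * u * t r) • ω₀ = ω₀ := hm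
    have h3 : κ (u * t r) ω₀ = b (u • r) * κ ((t (u • r))⁻¹ * u * t r) ω₀ := by
      rw [h2, hκ, hmem]
    have h4 : stabHom κ hκ ω₀ ⟨(t (u • r))⁻¹ * u * t r, hm⟩ = κ ((t (u • r))⁻¹ * u * t r) ω₀ := rfl
    rw [h4, ← h3, h1]
    simp
  rw [Finset.prod_congr rfl (fun r _ => hkey r), Finset.prod_mul_distrib, Finset.prod_mul_distrib,
    Finset.prod_inv_distrib]
  have h2 : ∏ r : P ⧸ MulAction.stabilizer P ω₀, b (u • r) = ∏ r, b r :=
    Fintype.prod_equiv (MulAction.toPerm u) _ _ (fun _ => rfl)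
  rw [h2, mul_comm (∏ r, b r), mul_assoc, mul_inv_cancel, mul_one]

end Orbit

end Cfsg.Agent.Lib.Yoshida
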