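/-
The key local lemma of the Wielandt–Yoshida argument: vanishing of the transfer of a homomorphism
of exponent `p` from a subgroup not containing the normal subgroup `W`.
-/
import Cfsg.Agent.Lib.Yoshida.Basic
import Cfsg.Agent.Lib.PGroup.Basic
import Mathlib

set_option autoImplicit false

namespace Cfsg.Agent.Lib.Yoshida

universe u v

theorem dvd_of_pow_mem {X : Type*} [Group X] {R : Subgroup X} [R.Normal] {p : ℕ} (hp : p.Prime)
    (hidx : R.index = p) {g : X} (hg : g ∉ R) {k : ℕ} (hk : g ^ k ∈ R) : p ∣ k := by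
  by_contra hnd
  have hcop : Nat.Coprime k p := ((Nat.Prime.coprime_iff_not_dvd hp).mpr hnd).symm
  obtain ⟨a, b, hab⟩ : ∃ a b : ℤ, (k : ℤ) * a + (p : ℤ) * b = 1 := by
    refine ⟨Nat.gcdA k p, Nat.gcdB k p, ?_⟩
    have := Nat.gcd_eq_gcd_ab k p
    rw [hcop] at this
    push_cast at this
    linarith
  haveI : Finite (X ⧸ R) :=
    Nat.finite_of_card_ne_zero (by rw [← Subgroup.index_eq_card, hidx]; exact hp.ne_zero)
  have hq : ((g : X) : X ⧸ R) ^ p = 1 := by
    have hcard : Nat.card (X ⧸ R) = p := by rw [← Subgroup.index_eq_card, hidx]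
    rw [← hcard]; exact pow_card_eq_one'
  have hzpR : g ^ p ∈ R := by
    rw [← QuotientGroup.eq_one_iff, QuotientGroup.mk_pow, hq]
  have : g = (g ^ k) ^ a * (g ^ p) ^ b := by
    rw [← zpow_natCast, ← zpow_natCast, ← zpow_mul, ← zpow_mul, ← zpow_add, hab, zpow_one]
  rw [this] at hg
  exact hg (R.mul_mem (R.zpow_mem hk a) (R.zpow_mem hzpR b))

/-- Lemma B: the transfer through a normal subgroup of index `p`. -/
theorem lemmaB {X : Type*} [Group X] [Finite X] {A : Type*} [CommGroup A] {p : ℕ} (hp : p.Prime)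
    (R : Subgroup X) [R.Normal] (hidx : R.index = p) (z : X) (hz : z ∉ R)
    (Q : Subgroup X) (hQ : Q ≤ R) (ε : Q →* A) (hε : ∀ a, ε a ^ p = 1)
    (g : X) (hg : ∀ (s : X) (n : ℕ), p ∣ n → ∀ h : s⁻¹ * g ^ n * s ∈ Q, ε ⟨_, h⟩ = 1)
    (hNV : ∀ μ : R →* A, (∀ a, μ a ^ p = 1) → ∀ y ∈ R,
      ∏ i ∈ Finset.range p, ext μ ((z ^ i)⁻¹ * y * z ^ i) = 1) :
    ε.transfer g = 1 := by
  rw [transfer_trans hQ ε g]
  set ε₁ : (Q.subgroupOf R) →* A := ε.comp (Subgroup.subgroupOfEquivOfLe hQ).toMonoidHom with hε₁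
  set μ : R →* A := MonoidHom.transfer ε₁ with hμdef
  have hμ : ∀ a, μ a ^ p = 1 := fun a => transfer_pow_eq_one ε₁ (fun x => hε _) a
  by_cases hgR : g ∈ R
  · rw [transfer_norm_prime hp hidx hz μ hgR]
    exact hNV μ hμ g hgR
  · apply transfer_eq_one_of
    intro k s hm
    have hgk : g ^ k ∈ R := by
      have := Subgroup.Normal.conj_mem (inferInstance : R.Normal) _ hm s
      have h2 : s * (s⁻¹ * g ^ k * s) * s⁻¹ = g ^ k := by group
      rwa [h2] at this
    have hpk : p ∣ k := dvd_of_pow_mem hp hidx hgR hgk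
    show (MonoidHom.transfer ε₁) ⟨_, hm⟩ = 1
    apply transfer_eq_one_of
    intro k' s' hm'
    have hX : (((s')⁻¹ * (⟨_, hm⟩ : R) ^ k' * s' : R) : X) = (s * s')⁻¹ * g ^ (k * k') * (s * s') := by
      simp only [Subgroup.coe_mul, Subgroup.coe_inv, Subgroup.coe_pow, pow_mul]
      have : ((s⁻¹ * g ^ k * s) ^ k') = s⁻¹ * (g ^ k) ^ k' * s := by
        have := conj_pow (a := s⁻¹) (b := g ^ k) (i := k')
        simpa using this
      rw [this]; group
    have hm'' : (s * s')⁻¹ * g ^ (k * k') * (s * s') ∈ Q := by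
      rw [← hX]; exact hm'
    have := hg (s * s') (k * k') (Dvd.dvd.mul_right hpk k') hm''
    rw [← this]
    show ε _ = ε _
    congr 1
    exact Subtype.ext hX

/-- The hypothesis on norms. -/
def NV {P : Type*} [Group P] (p : ℕ) (W : Subgroup P) (A : Type*) [CommGroup A] : Prop :=
  ∀ (R : Subgroup P) (z : P), z ∈ W → z ∉ R → (∀ y ∈ R, z⁻¹ * y * z ∈ R) → z ^ p ∈ R →
    (∀ w ∈ W, ∃ i : ℕ, z ^ i * w ∈ R) →
    ∀ f : P → A, (∀ a ∈ R, ∀ b ∈ R, f (a * b) = f a * f b) → (∀ a ∈ R, f a ^ p = 1) →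
    ∀ y ∈ R, ∏ i ∈ Finset.range p, f ((z ^ i)⁻¹ * y * z ^ i) = 1

/-- Lemma A. -/
theorem lemmaA {P : Type*} [Group P] [Finite P] {A : Type*} [CommGroup A] {p : ℕ} [hp : Fact p.Prime]
    (hP : IsPGroup p P) (W Q : Subgroup P) [hW : W.Normal] (hWQ : ¬ W ≤ Q) (ε : Q →* A)
    (hε : ∀ a, ε a ^ p = 1) (v : P)
    (hv : ∀ (s : P) (n : ℕ), p ∣ n → ∀ h : s⁻¹ * v ^ n * s ∈ Q, ε ⟨_, h⟩ = 1)
    (hNV : NV p W A) : ε.transfer v = 1 := by
  classical
  set X : Subgroup P := Q ⊔ W with hX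
  have hQX : Q ≤ X := le_sup_left
  have hWX : W ≤ X := le_sup_right
  rw [transfer_trans hQX ε v]
  set ε₁ : (Q.subgroupOf X) →* A := ε.comp (Subgroup.subgroupOfEquivOfLe hQX).toMonoidHom with hε₁
  apply transfer_eq_one_of
  intro k s hm
  show ε₁.transfer (⟨_, hm⟩ : X) = 1
  let Q₁ : Subgroup X := Q.subgroupOf X
  have hPX : IsPGroup p X := hP.to_subgroup X
  -- a maximal subgroup above `Q₁`
  have hmemX : ∀ x : X, ∃ q ∈ Q, ∃ w ∈ W, (x : P) = q * w := by
    intro x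
    have : (x : P) ∈ ((Q ⊔ W : Subgroup P) : Set P) := x.2
    rw [Subgroup.mul_normal] at this
    obtain ⟨q, hq, w, hw, h⟩ := Set.mem_mul.mp this
    exact ⟨q, hq, w, hw, h.symm⟩
  have hQ₁top : Q₁ ≠ ⊤ := by
    intro h
    apply hWQ
    intro w hw
    have : (⟨w, hWX hw⟩ : X) ∈ Q₁ := by rw [h]; trivial
    exact this
  obtain ⟨R₁, hR₁, hQR₁⟩ : ∃ R₁ : Subgroup X, IsCoatom R₁ ∧ Q₁ ≤ R₁ := by
    rcases eq_top_or_exists_le_coatom Q₁ with h | h
    · exact absurd h hQ₁top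
    · exact h
  have hidx : R₁.index = p := Cfsg.Agent.Lib.PGroup.index_eq_prime_of_isCoatom hPX hR₁
  haveI hR₁n : R₁.Normal := Cfsg.Agent.Lib.PGroup.normal_of_index_eq_prime hPX hidx
  -- an element of `W` outside `R₁`
  obtain ⟨z, hzW, hzR⟩ : ∃ z : X, (z : P) ∈ W ∧ z ∉ R₁ := by
    by_contra hcon
    push Not at hcon
    apply hR₁.1
    rw [eq_top_iff]
    intro x _
    obtain ⟨q, hq, w, hw, h⟩ := hmemX x
    have hqX : (⟨q, hQX hq⟩ : X) ∈ R₁ := hQR₁ hq
    have hwX : (⟨w, hWX hw⟩ : X) ∈ R₁ := hcon _ hw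
    have : x = (⟨q, hQX hq⟩ : X) * ⟨w, hWX hw⟩ := Subtype.ext h
    rw [this]
    exact R₁.mul_mem hqX hwX
  have hzp : z ^ p ∈ R₁ := by
    haveI : Finite (X ⧸ R₁) := inferInstance
    have hq : ((z : X) : X ⧸ R₁) ^ p = 1 := by
      have hcard : Nat.card (X ⧸ R₁) = p := by rw [← Subgroup.index_eq_card, hidx]
      rw [← hcard]; exact pow_card_eq_one'
    rw [← QuotientGroup.eq_one_iff, QuotientGroup.mk_pow, hq]
  refine lemmaB hp.out R₁ hidx z hzR (Q.subgroupOf X) hQR₁ ε₁ (fun a => ?_) _ ?_ ?_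
  · exact hε _
  · intro s₁ n hn h
    have hcoe : (((s₁)⁻¹ * (⟨_, hm⟩ : X) ^ n * s₁ : X) : P) = (s * s₁)⁻¹ * v ^ (k * n) * (s * s₁) := by
      simp only [Subgroup.coe_mul, Subgroup.coe_inv, Subgroup.coe_pow, pow_mul]
      have : ((s⁻¹ * v ^ k * s) ^ n) = s⁻¹ * (v ^ k) ^ n * s := by
        have := conj_pow (a := s⁻¹) (b := v ^ k) (i := n)
        simpa using this
      rw [this]; group
    have hm'' : (s * s₁)⁻¹ * v ^ (k * n) * (s * s₁) ∈ Q := by
      rw [← hcoe]; exact h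
    have := hv (s * s₁) (k * n) (Dvd.dvd.mul_left hn k) hm''
    rw [← this]
    show ε _ = ε _
    congr 1
    exact Subtype.ext hcoe
  · intro μ hμ y hy
    let R : Subgroup P := R₁.map X.subtype
    have hmemR : ∀ x : X, (x : P) ∈ R ↔ x ∈ R₁ := fun x => by
      constructor
      · rintro ⟨x', hx', h⟩
        have : x' = x := Subtype.ext h
        exact this ▸ hx'
      · exact fun h => ⟨x, h, rfl⟩
    have hRX : R ≤ X := by
      rintro _ ⟨x', _, rfl⟩
      exact x'.2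
    let f : P → A := fun a => if h : a ∈ X then ext μ ⟨a, h⟩ else 1
    have hf : ∀ x : X, f x = ext μ x := fun x => by simp [f]
    have h1 := hNV R z hzW (by rw [hmemR]; exact hzR)
      (by
        rintro _ ⟨x', hx', rfl⟩
        have : (z : P)⁻¹ * (x' : P) * z = ((z⁻¹ * x' * z : X) : P) := by simp
        rw [Subgroup.coe_subtype, this, hmemR]
        have := Subgroup.Normal.conj_mem hR₁n x' hx' z⁻¹
        simpa using this)
      (by
        have : ((z : P)) ^ p = ((z ^ p : X) : P) := by simp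
        rw [this, hmemR]; exact hzp)
      (by
        intro w hw
        haveI : Fact (Nat.card (X ⧸ R₁)).Prime := by
          rw [← Subgroup.index_eq_card, hidx]; exact hp
        have hne : ((z : X) : X ⧸ R₁) ≠ 1 := by
          rwa [Ne, QuotientGroup.eq_one_iff]
        have hmem : (((⟨w, hWX hw⟩ : X)⁻¹ : X) : X ⧸ R₁) ∈ Submonoid.powers ((z : X) : X ⧸ R₁) :=
          mem_powers_of_prime_card rfl hne
        obtain ⟨i, hi⟩ := hmem
        have hi' : ((z : X) : X ⧸ R₁) ^ i = (((⟨w, hWX hw⟩ : X)⁻¹ : X) : X ⧸ R₁) := hi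
        refine ⟨i, ?_⟩
        have h2 : (z : P) ^ i * w = ((z ^ i * ⟨w, hWX hw⟩ : X) : P) := by simp
        rw [h2, hmemR, ← QuotientGroup.eq_one_iff, QuotientGroup.mk_mul, QuotientGroup.mk_pow, hi',
          QuotientGroup.mk_inv, inv_mul_cancel])
      f
      (by
        rintro _ ⟨a, ha, rfl⟩ _ ⟨b, hb, rfl⟩
        have : X.subtype a * X.subtype b = ((a * b : X) : P) := rfl
        rw [this]
        simp only [Subgroup.coe_subtype, hf]
        exact ext_mul μ ha hb)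
      (by
        rintro _ ⟨a, ha, rfl⟩
        simp only [Subgroup.coe_subtype, hf]
        rw [ext_of_mem μ ha]
        exact hμ _)
      (y : P) ((hmemR y).mpr hy)
    rw [← h1]
    refine Finset.prod_congr rfl fun i _ => ?_
    have : ((z : P) ^ i)⁻¹ * (y : P) * (z : P) ^ i = (((z ^ i)⁻¹ * y * z ^ i : X) : P) := by simp
    rw [this, hf]

end Cfsg.Agent.Lib.Yoshida
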