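/-
The Wielandt–Yoshida control of transfer: if the norms vanish, a homomorphism on a Sylow subgroup
stable under the normalizer of a weakly closed subgroup extends to the whole group.
-/
import Cfsg.Agent.Lib.Yoshida.Core
import Cfsg.Prelude.Def_Transfer
import Mathlib

set_option autoImplicit false

namespace Cfsg.Agent.Lib.Yoshida

universe u v

variable {G : Type u} [Group G] [Finite G] {A : Type v} [CommGroup A]

section Kappa

variable {S : Subgroup G}

/-- The normalized cocycle on the cosets of `S`. -/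
noncomputable def kappa (l : S →* A) (g : S) (ω : G ⧸ S) : A :=
  ext l ((((g : G) • ω).out : G)⁻¹ * g * ω.out) * (l g)⁻¹

theorem kappa_mem (g : G) (ω : G ⧸ S) : ((g • ω).out : G)⁻¹ * g * ω.out ∈ S :=
  coc_mem (H := S) _ out_section g ω

theorem kappa_coc (l : S →* A) (g h : S) (ω : G ⧸ S) :
    kappa l (g * h) ω = kappa l g (h • ω) * kappa l h ω := by
  have hs : ((g : G) • ((h : G) • ω)) = (((g * h : S) : G) • ω) := by
    rw [Subgroup.coe_mul, mul_smul]
  have hh : h • ω = (h : G) • ω := rfl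
  unfold kappa
  rw [hh, hs]
  have h1 : ((((g * h : S) : G) • ω).out : G)⁻¹ * ((g * h : S) : G) * ω.out =
      ((((g * h : S) : G) • ω).out : G)⁻¹ * (g : G) * (((h : G) • ω).out : G) *
        ((((h : G) • ω).out : G)⁻¹ * (h : G) * ω.out) := by
    simp only [Subgroup.coe_mul]; group
  have m1 : ((((g * h : S) : G) • ω).out : G)⁻¹ * (g : G) * (((h : G) • ω).out : G) ∈ S := by
    have := kappa_mem (S := S) (g : G) ((h : G) • ω)
    rwa [hs] at this
  rw [h1, ext_mul l m1 (kappa_mem (h : G) ω), map_mul, mul_inv]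
  simp only [mul_assoc, mul_left_comm, mul_comm]

theorem prod_kappa [Fintype (G ⧸ S)] (l : S →* A) (u : S) :
    l.transfer (u : G) = l u ^ S.index * ∏ ω : G ⧸ S, kappa l u ω := by
  rw [transfer_eq_prod l _ out_section]
  unfold kappa
  rw [Finset.prod_mul_distrib, Finset.prod_inv_distrib, Finset.prod_const, Subgroup.index_eq_card,
    Nat.card_eq_fintype_card, Finset.card_univ]
  simp only [mul_left_comm, mul_inv_cancel, mul_one]

/-- The homomorphism on a stabilizer. -/
noncomputable def eps (l : S →* A) (ω : G ⧸ S) : MulAction.stabilizer S ω →* A :=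
  stabHom (kappa l) (kappa_coc l) ω

theorem eps_apply (l : S →* A) (ω : G ⧸ S) (v : MulAction.stabilizer S ω) :
    eps l ω v = ext l ((ω.out : G)⁻¹ * ((v : S) : G) * ω.out) * (l v)⁻¹ := by
  have hv : (((v : S) : G)) • ω = ω := v.2
  show kappa l (v : S) ω = _
  unfold kappa
  rw [hv]

theorem stab_mem (ω : G ⧸ S) (v : MulAction.stabilizer S ω) :
    (ω.out : G)⁻¹ * ((v : S) : G) * ω.out ∈ S := by
  have hv : (((v : S) : G)) • ω = ω := v.2
  have := kappa_mem (S := S) ((v : S) : G) ω
  rwa [hv] at this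

/-- Transfer formula. -/
theorem transfer_formula [Fintype (MulAction.orbitRel.Quotient S (G ⧸ S))] (l : S →* A) (u : S) :
    l.transfer (u : G) = l u ^ S.index *
      ∏ O : MulAction.orbitRel.Quotient S (G ⧸ S), (eps l (Quotient.out O)).transfer u := by
  classical
  letI : Fintype (G ⧸ S) := Fintype.ofFinite _
  rw [prod_kappa, prod_orbit_eq_transfer (kappa l) (kappa_coc l) u]
  rfl

end Kappa

section Main

variable {p : ℕ} [hp : Fact p.Prime] {S W : Subgroup G}

theorem eq_one_of_pow_coprime {a : A} {n m : ℕ} (h1 : a ^ n = 1) (h2 : a ^ m = 1) (hc : Nat.Coprime n m) :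
    a = 1 := by
  have := Nat.dvd_gcd (orderOf_dvd_of_pow_eq_one h1) (orderOf_dvd_of_pow_eq_one h2)
  rw [Nat.Coprime.gcd_eq_one hc] at this
  exact orderOf_eq_one_iff.mp (Nat.dvd_one.mp this)

/-- Stability of a homomorphism on `S`. -/
def Stable (N S : Subgroup G) (l : S →* A) : Prop :=
  ∀ x ∈ N, ∀ v : S, x⁻¹ * v * x ∈ S → ext l (x⁻¹ * v * x) = l v

theorem stable_of_ext {N : Subgroup G} (τ : G →* A) : Stable N S (τ.comp S.subtype) := by
  intro x _ v hm
  rw [ext_of_mem _ hm]
  simp only [MonoidHom.comp_apply, Subgroup.subtype_apply, map_mul, map_inv]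
  rw [mul_comm (τ x)⁻¹, mul_assoc]
  simp

theorem stable_mul {N : Subgroup G} {l m : S →* A} (hl : Stable N S l) (hm : Stable N S m) :
    Stable N S (l * m) := by
  intro x hx v h
  have h1 := hl x hx v h
  have h2 := hm x hx v h
  rw [ext_of_mem _ h] at h1 h2 ⊢
  simp only [MonoidHom.mul_apply]
  rw [h1, h2]

theorem stable_inv {N : Subgroup G} {l : S →* A} (hl : Stable N S l) :
    Stable N S (l⁻¹) := by
  intro x hx v h
  have h1 := hl x hx v h
  rw [ext_of_mem _ h] at h1 ⊢
  simp only [MonoidHom.inv_apply]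
  rw [h1]

theorem stable_pow {N : Subgroup G} {l : S →* A} (hl : Stable N S l) (n : ℕ) :
    Stable N S (l ^ n) := by
  intro x hx v h
  have h1 := hl x hx v h
  rw [ext_of_mem _ h] at h1 ⊢
  simp only [MonoidHom.pow_apply]
  rw [h1]

/-- Good orbits contribute nothing. -/
theorem eps_eq_one {N : Subgroup G} {l : S →* A} (hl : Stable N S l) (ω : G ⧸ S)
    (hx : (ω.out : G) ∈ N) : eps l ω = 1 := by
  ext v
  rw [eps_apply, hl _ hx _ (stab_mem ω v)]
  simp

/-- Bad orbits: `W` is not in the stabilizer. -/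
theorem not_le_stab (hW : Cfsg.IsWeaklyClosed W S) (ω : G ⧸ S)
    (hx : (ω.out : G) ∉ Subgroup.normalizer (W : Set G)) :
    ¬ W.subgroupOf S ≤ MulAction.stabilizer S ω := by
  intro h
  apply hx
  set x : G := ω.out with hxdef
  have h1 : W.map (MulAut.conj x⁻¹).toMonoidHom ≤ S := by
    rintro _ ⟨w, hw, rfl⟩
    have hw' : (⟨w, hW.1 hw⟩ : S) ∈ W.subgroupOf S := hw
    have h2 := h hw'
    have h3 := stab_mem ω ⟨_, h2⟩
    simpa [hxdef] using h3
  have h2 := hW.2 x⁻¹ h1
  have h3 : x⁻¹ ∈ Subgroup.normalizer (W : Set G) := by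
    rw [Subgroup.mem_normalizer_iff]
    intro w
    constructor
    · intro hw
      have : x⁻¹ * w * x⁻¹⁻¹ ∈ W.map (MulAut.conj x⁻¹).toMonoidHom := ⟨w, hw, rfl⟩
      rwa [h2] at this
    · intro hw
      have hw' : x⁻¹ * w * x⁻¹⁻¹ ∈ W.map (MulAut.conj x⁻¹).toMonoidHom := by
        rw [h2]; exact hw
      obtain ⟨w', hw'', he⟩ := hw'
      have : w' = w := by
        have : x⁻¹ * w' * x⁻¹⁻¹ = x⁻¹ * w * x⁻¹⁻¹ := he
        simpa using this
      exact this ▸ hw''
  have := (Subgroup.normalizer (W : Set G)).inv_mem h3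
  simpa using this

/-- The injectivity step. -/
theorem inj_step (hS : IsPGroup p S) (hidx : ¬ p ∣ S.index) (hW : Cfsg.IsWeaklyClosed W S)
    (hNV : NV p (W.subgroupOf S) A)
    (l : S →* A) (hl : Stable (Subgroup.normalizer (W : Set G)) S l) (hl1 : ∀ a, l a ^ p = 1)
    (h1 : ∀ v : S, l.transfer (v : G) = 1) (v : S) : l v = 1 := by
  classical
  have hWn : (W.subgroupOf S).Normal := by
    constructor
    intro n hn g
    have hg : ((g : S) : G) ∈ S := g.2
    have h2 : W.map (MulAut.conj (g : G)).toMonoidHom ≤ S := by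
      rintro _ ⟨w, hw, rfl⟩
      exact S.mul_mem (S.mul_mem g.2 (hW.1 hw)) (S.inv_mem g.2)
    have h3 := hW.2 _ h2
    show (((g * n * g⁻¹ : S)) : G) ∈ W
    have h4 : ((g : G)) * n * (g : G)⁻¹ ∈ W.map (MulAut.conj (g : G)).toMonoidHom := ⟨n, hn, rfl⟩
    rw [h3] at h4
    simpa using h4
  suffices H : ∀ j : ℕ, ∀ v : S, v ^ (p ^ j) = 1 → l v = 1 by
    obtain ⟨j, hj⟩ := hS v
    exact H j v hj
  intro j
  induction j with
  | zero =>
    intro v hv
    have : v = 1 := by simpa using hv
    rw [this, map_one]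
  | succ j ih =>
    intro v hv
    have h2 := h1 v
    letI : Fintype (MulAction.orbitRel.Quotient S (G ⧸ S)) := Fintype.ofFinite _
    rw [transfer_formula] at h2
    have h3 : ∀ O : MulAction.orbitRel.Quotient S (G ⧸ S),
        (eps l (Quotient.out O)).transfer v = 1 := by
      intro O
      set ω : G ⧸ S := Quotient.out O with hω
      by_cases hx : (ω.out : G) ∈ Subgroup.normalizer (W : Set G)
      · rw [eps_eq_one hl ω hx]
        exact transfer_one_hom _
      · refine lemmaA hS (W.subgroupOf S) (MulAction.stabilizer S ω) (not_le_stab hW ω hx) _ ?_ v ?_ hNV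
        · intro a
          rw [eps_apply, ext_of_mem _ (stab_mem ω a), mul_pow, inv_pow, hl1, hl1]
          simp
        · intro s n hn hm
          have hy : (s⁻¹ * v ^ n * s) ^ (p ^ j) = 1 := by
            obtain ⟨m, rfl⟩ := hn
            have : (s⁻¹ * v ^ (p * m) * s) ^ (p ^ j) = s⁻¹ * (v ^ (p * m)) ^ (p ^ j) * s := by
              have := conj_pow (a := s⁻¹) (b := v ^ (p * m)) (i := p ^ j)
              simpa using this
            rw [this]
            have h5 : (v ^ (p * m)) ^ (p ^ j) = (v ^ (p ^ (j + 1))) ^ m := by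
              rw [← pow_mul, ← pow_mul]
              congr 1
              rw [pow_succ]; ring
            rw [h5, hv]
            simp
          rw [eps_apply]
          have hmem := stab_mem ω ⟨_, hm⟩
          rw [ext_of_mem _ hmem, ih _ hy, inv_one, mul_one]
          apply ih
          apply Subtype.ext
          simp only [Subgroup.coe_pow, Subgroup.coe_one]
          have := conj_pow (a := ((ω.out : G))⁻¹) (b := (((s⁻¹ * v ^ n * s : S)) : G)) (i := p ^ j)
          simp only [inv_inv] at this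
          rw [this]
          have h6 : (((s⁻¹ * v ^ n * s : S)) : G) ^ (p ^ j) = 1 := by
            have := congrArg (Subtype.val) hy
            simpa using this
          rw [h6]
          simp
    rw [Finset.prod_eq_one (fun O _ => h3 O), mul_one] at h2
    have hcop : Nat.Coprime S.index p := ((Nat.Prime.coprime_iff_not_dvd hp.out).mpr hidx).symm
    have hlv := hl1 v
    exact eq_one_of_pow_coprime h2 hlv hcop

/-- Homomorphisms of exponent `p` extend. -/
theorem exists_ext_exp [Finite A] (hS : IsPGroup p S) (hidx : ¬ p ∣ S.index)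
    (hW : Cfsg.IsWeaklyClosed W S) (hNV : NV p (W.subgroupOf S) A)
    (l : S →* A) (hl : Stable (Subgroup.normalizer (W : Set G)) S l) (hl1 : ∀ a, l a ^ p = 1) :
    ∃ τ : G →* A, ∀ v : S, τ v = l v := by
  classical
  let N := Subgroup.normalizer (W : Set G)
  let X := { m : S →* A // Stable N S m ∧ ∀ a, m a ^ p = 1 }
  let T : X → X := fun m => ⟨(m.1.transfer).comp S.subtype, stable_of_ext _, fun a =>
    transfer_pow_eq_one m.1 m.2.2 _⟩
  have hTinj : Function.Injective T := by
    intro m₁ m₂ h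
    have h1 : ∀ v : S, m₁.1.transfer (v : G) = m₂.1.transfer (v : G) := fun v =>
      DFunLike.congr_fun (congrArg Subtype.val h) v
    let ν : S →* A := m₁.1 * (m₂.1)⁻¹
    have hν : m₁.1 = m₂.1 * ν := by
      ext v; simp [ν]
    have hν1 : Stable N S ν := stable_mul m₁.2.1 (stable_inv m₂.2.1)
    have hν2 : ∀ a, ν a ^ p = 1 := fun a => by
      simp only [ν, MonoidHom.mul_apply, MonoidHom.inv_apply, mul_pow, inv_pow, m₁.2.2, m₂.2.2]
      simp
    have hν3 : ∀ v : S, ν.transfer (v : G) = 1 := fun v => by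
      have h2 := h1 v
      rw [hν, transfer_mul_hom] at h2
      simpa using h2
    have hν4 : ∀ v, ν v = 1 := fun v => inj_step hS hidx hW hNV ν hν1 hν2 hν3 v
    apply Subtype.ext
    rw [hν]
    ext v
    simp [hν4 v]
  have hfin : Finite X := by
    haveI : Finite (S →* A) := Finite.of_injective (fun f : S →* A => (f : S → A)) DFunLike.coe_injective
    exact Subtype.finite
  obtain ⟨m₀, hm₀⟩ := (Finite.injective_iff_surjective.mp hTinj) ⟨l, hl, hl1⟩
  refine ⟨m₀.1.transfer, fun v => ?_⟩
  exact DFunLike.congr_fun (congrArg Subtype.val hm₀) v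

/-- Stable homomorphisms extend. -/
theorem exists_ext_aux [Finite A] (hS : IsPGroup p S) (hidx : ¬ p ∣ S.index)
    (hW : Cfsg.IsWeaklyClosed W S) (hNV : NV p (W.subgroupOf S) A) (a : ℕ) :
    ∀ l : S →* A, Stable (Subgroup.normalizer (W : Set G)) S l → (∀ v, l v ^ (p ^ a) = 1) →
    ∃ τ : G →* A, ∀ v : S, τ v = l v := by
  classical
  induction a with
  | zero =>
    intro l _ h
    refine ⟨1, fun v => ?_⟩
    have := h v
    simp only [pow_zero, pow_one] at this
    simp [this]
  | succ a ih =>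
    intro l hl hla
    obtain ⟨ν, hν⟩ := ih (l ^ p) (stable_pow hl p) (fun v => by
      simp only [MonoidHom.pow_apply]
      rw [← pow_mul, ← pow_succ']
      exact hla v)
    letI : Fintype (MulAction.orbitRel.Quotient S (G ⧸ S)) := Fintype.ofFinite _
    let ρ : S →* A := (l.transfer.comp S.subtype) * (l ^ S.index)⁻¹
    have hρ : ∀ v, ρ v = ∏ O : MulAction.orbitRel.Quotient S (G ⧸ S),
        (eps l (Quotient.out O)).transfer v := fun v => by
      simp only [ρ, MonoidHom.mul_apply, MonoidHom.comp_apply, Subgroup.subtype_apply,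
        MonoidHom.inv_apply, MonoidHom.pow_apply]
      rw [transfer_formula]
      simp
    have hρs : Stable (Subgroup.normalizer (W : Set G)) S ρ :=
      stable_mul (stable_of_ext _) (stable_inv (stable_pow hl _))
    have hρp : ∀ v, ρ v ^ p = 1 := fun v => by
      rw [hρ, ← Finset.prod_pow]
      refine Finset.prod_eq_one fun O _ => ?_
      refine transfer_pow_eq_one _ (fun y => ?_) _
      rw [eps_apply, ext_of_mem _ (stab_mem _ y), mul_pow, inv_pow]
      have h1 : ∀ w : S, l w ^ p = ν w := fun w => by rw [hν]; rfl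
      rw [h1, h1]
      simp only [map_mul, map_inv]
      rw [mul_comm (ν _)⁻¹, mul_assoc]
      simp
    obtain ⟨τ', hτ'⟩ := exists_ext_exp hS hidx hW hNV ρ hρs hρp
    let τ₁ : G →* A := l.transfer * τ'⁻¹
    have hτ₁ : ∀ v : S, τ₁ v = l v ^ S.index := fun v => by
      simp only [τ₁, MonoidHom.mul_apply, MonoidHom.inv_apply, hτ']
      simp [ρ]
    have hcop : Nat.Coprime S.index (p ^ (a + 1)) :=
      Nat.Coprime.pow_right _ ((Nat.Prime.coprime_iff_not_dvd hp.out).mpr hidx).symm
    have hgt : 1 < p ^ (a + 1) := Nat.one_lt_pow (by omega) hp.out.one_lt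
    obtain ⟨c, hc⟩ := Nat.exists_mul_mod_eq_one_of_coprime hcop hgt
    refine ⟨τ₁ ^ c, fun v => ?_⟩
    simp only [MonoidHom.pow_apply]
    rw [hτ₁, ← pow_mul, ← pow_mod_orderOf]
    have hdvd : orderOf (l v) ∣ p ^ (a + 1) := orderOf_dvd_of_pow_eq_one (hla v)
    have h1 : S.index * c % orderOf (l v) = 1 % orderOf (l v) := by
      have : (S.index * c) % p ^ (a + 1) = 1 % p ^ (a + 1) := by
        rw [hc.2, Nat.mod_eq_of_lt hgt]
      exact Nat.ModEq.of_dvd hdvd this
    rw [h1, pow_mod_orderOf, pow_one]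

theorem exists_ext [Finite A] (hS : IsPGroup p S) (hidx : ¬ p ∣ S.index)
    (hW : Cfsg.IsWeaklyClosed W S) (hNV : NV p (W.subgroupOf S) A)
    (l : S →* A) (hl : Stable (Subgroup.normalizer (W : Set G)) S l) :
    ∃ τ : G →* A, ∀ v : S, τ v = l v := by
  obtain ⟨a, ha⟩ := IsPGroup.iff_card.mp hS
  refine exists_ext_aux hS hidx hW hNV a l hl (fun v => ?_)
  rw [← ha, ← map_pow, pow_card_eq_one', map_one]

/-- Sylow subgroups normalize their weakly closed subgroups. -/
theorem le_normalizer_of_weaklyClosed (hW : Cfsg.IsWeaklyClosed W S) :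
    S ≤ Subgroup.normalizer (W : Set G) := by
  intro s hs
  have h1 : W.map (MulAut.conj s).toMonoidHom ≤ S := by
    rintro _ ⟨w, hw, rfl⟩
    exact S.mul_mem (S.mul_mem hs (hW.1 hw)) (S.inv_mem hs)
  have h2 := hW.2 s h1
  rw [Subgroup.mem_normalizer_iff]
  intro w
  constructor
  · intro hw
    have : s * w * s⁻¹ ∈ W.map (MulAut.conj s).toMonoidHom := ⟨w, hw, rfl⟩
    rwa [h2] at this
  · intro hw
    have hw' : s * w * s⁻¹ ∈ W.map (MulAut.conj s).toMonoidHom := by
      rw [h2]; exact hw
    obtain ⟨w', hw'', he⟩ := hw'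
    have : w' = w := by
      have : s * w' * s⁻¹ = s * w * s⁻¹ := he
      simpa using this
    exact this ▸ hw''

/-- Control of transfer. -/
theorem yoshida_core (hS : IsPGroup p S) (hidx : ¬ p ∣ S.index) (hW : Cfsg.IsWeaklyClosed W S)
    (hNV : NV p (W.subgroupOf S) (Abelianization ↥(Subgroup.normalizer (W : Set G)))) :
    S ⊓ commutator G ≤ ⁅Subgroup.normalizer (W : Set G), Subgroup.normalizer (W : Set G)⁆ := by
  classical
  set N := Subgroup.normalizer (W : Set G) with hN
  have hSN : S ≤ N := le_normalizer_of_weaklyClosed hW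
  let l : S →* Abelianization ↥N := Abelianization.of.comp (Subgroup.inclusion hSN)
  have hl : Stable N S l := by
    intro x hx v hm
    rw [ext_of_mem _ hm]
    have h1 : (Subgroup.inclusion hSN ⟨x⁻¹ * v * x, hm⟩ : N) = (⟨x, hx⟩ : N)⁻¹ * Subgroup.inclusion hSN v * ⟨x, hx⟩ :=
      Subtype.ext (by simp)
    simp only [l, MonoidHom.comp_apply]
    rw [h1, map_mul, map_mul, map_inv, mul_comm (Abelianization.of _)⁻¹, mul_assoc]
    simp
  obtain ⟨τ, hτ⟩ := exists_ext hS hidx hW hNV l hl
  rintro s ⟨hs1, hs2⟩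
  have h1 : s ∈ τ.ker := Abelianization.commutator_subset_ker τ hs2
  have h2 : l ⟨s, hs1⟩ = 1 := by rw [← hτ]; exact h1
  have h3 : (Subgroup.inclusion hSN ⟨s, hs1⟩ : N) ∈ (Abelianization.of (G := N)).ker := h2
  rw [Abelianization.ker_of] at h3
  have h4 : s ∈ (commutator ↥N).map N.subtype := ⟨_, h3, rfl⟩
  rwa [Subgroup.map_subtype_commutator] at h4

end Main

end Cfsg.Agent.Lib.Yoshida
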