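/-
The norm of a homomorphism of exponent `p` under a cyclic action is an iterated commutator:
`(σ - 1)^(p-1) = 1 + σ + ... + σ^(p-1)` modulo `p`.
-/
import Cfsg.Agent.Lib.Yoshida.Main
import Mathlib

set_option autoImplicit false

namespace Cfsg.Agent.Lib.Yoshida

universe u v

theorem coeff_mod {p : ℕ} [hp : Fact p.Prime] (i : ℕ) (hi : i ≤ p - 1) :
    (((-1 : ℤ) ^ (p - 1 - i) * ((p - 1).choose i : ℤ) : ℤ) : ZMod p) = 1 := by
  induction i with
  | zero =>
    simp only [Nat.sub_zero, Nat.choose_zero_right, Nat.cast_one, mul_one, Int.cast_pow,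
      Int.cast_neg, Int.cast_one]
    exact ZMod.pow_card_sub_one_eq_one (neg_ne_zero.mpr one_ne_zero)
  | succ i ih =>
    have hi' : i ≤ p - 1 := by omega
    have h0 := ih hi'
    have hpos := hp.out.pos
    have h1 : (p - 1).choose (i + 1) + (p - 1).choose i = p.choose (i + 1) := by
      obtain ⟨n, rfl⟩ : ∃ n, p = n + 1 := ⟨p - 1, by omega⟩
      simp only [Nat.add_sub_cancel]
      rw [Nat.choose_succ_succ]; ring
    have h2 : ((p.choose (i + 1) : ℕ) : ZMod p) = 0 :=
      (ZMod.natCast_eq_zero_iff _ _).mpr (hp.out.dvd_choose_self (Nat.succ_ne_zero i) (by omega))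
    have h3 : (((p - 1).choose (i + 1) : ℕ) : ZMod p) = - (((p - 1).choose i : ℕ) : ZMod p) := by
      have := congrArg (Nat.cast : ℕ → ZMod p) h1
      rw [Nat.cast_add, h2] at this
      exact eq_neg_of_add_eq_zero_left this
    have h4 : p - 1 - i = (p - 1 - (i + 1)) + 1 := by omega
    push_cast at h0 ⊢
    rw [h3]
    rw [h4, pow_succ] at h0
    calc _ = (-1 : ZMod p) ^ (p - 1 - (i + 1)) * -1 * (((p - 1).choose i : ℕ) : ZMod p) := by ring
      _ = 1 := h0

section Iter

variable {R : Type u} [Group R] {A : Type v} [CommGroup A]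

/-- Precomposition, as an additive endomorphism. -/
def precomp (σ : R →* R) : AddMonoid.End (Additive (R →* A)) where
  toFun m := Additive.ofMul ((Additive.toMul m).comp σ)
  map_zero' := rfl
  map_add' _ _ := rfl

theorem precomp_pow_apply (σ : R →* R) (i : ℕ) (m : Additive (R →* A)) (y : R) :
    (Additive.toMul (((precomp σ) ^ i) m)) y = (Additive.toMul m) (σ^[i] y) := by
  induction i generalizing m with
  | zero => simp
  | succ i ih =>
    rw [pow_succ]
    show (Additive.toMul (((precomp σ) ^ i) ((precomp σ) m))) y = _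
    rw [ih, Function.iterate_succ_apply']
    rfl

theorem sub_one_pow_apply (σ : R →* R) (k : ℕ) (m : Additive (R →* A)) (y : R) :
    (Additive.toMul (((precomp σ - 1) ^ k) m)) y =
      (Additive.toMul m) ((fun w => w⁻¹ * σ w)^[k] y) := by
  induction k generalizing m with
  | zero => simp
  | succ k ih =>
    rw [pow_succ]
    show (Additive.toMul (((precomp σ - 1) ^ k) ((precomp σ - 1) m))) y = _
    rw [ih, Function.iterate_succ_apply']
    set w := (fun w => w⁻¹ * σ w)^[k] y
    show (Additive.toMul ((precomp σ) m - m)) w = _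
    show (Additive.toMul m) (σ w) / ((Additive.toMul m) w) = (Additive.toMul m) (w⁻¹ * σ w)
    rw [map_mul, map_inv, div_eq_mul_inv, mul_comm]

/-- The iterated commutator computes the norm. -/
theorem iter_norm {p : ℕ} [hp : Fact p.Prime] (σ : R →* R) (μ : R →* A) (hμ : ∀ a, μ a ^ p = 1) (y : R) :
    μ ((fun w => w⁻¹ * σ w)^[p - 1] y) = ∏ i ∈ Finset.range p, μ (σ^[i] y) := by
  classical
  set m₀ : Additive (R →* A) := Additive.ofMul μ with hm₀
  have hpm : p • m₀ = 0 := by
    apply Additive.toMul.injective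
    ext a
    show μ a ^ p = 1
    exact hμ a
  have hpos := hp.out.pos
  have hbin : (precomp σ - 1 : AddMonoid.End (Additive (R →* A))) ^ (p - 1) =
      ∑ i ∈ Finset.range p, (precomp σ) ^ i * (-1) ^ (p - 1 - i) * (((p - 1).choose i : ℕ) : AddMonoid.End (Additive (R →* A))) := by
    have := (Commute.neg_one_right (precomp (A := A) σ)).add_pow (p - 1)
    rw [sub_eq_add_neg, this, Nat.sub_add_cancel hpos]
  have hterm : ∀ i ∈ Finset.range p,
      ((precomp σ) ^ i * (-1) ^ (p - 1 - i) * (((p - 1).choose i : ℕ) : AddMonoid.End (Additive (R →* A))) : AddMonoid.End (Additive (R →* A))) m₀ =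
        ((precomp σ) ^ i) m₀ := by
    intro i hi
    have hi' : i ≤ p - 1 := by have := Finset.mem_range.mp hi; omega
    have h1 := coeff_mod (p := p) i hi'
    set a : ℤ := (-1 : ℤ) ^ (p - 1 - i) * ((p - 1).choose i : ℤ) with ha
    have h2 : (p : ℤ) ∣ a - 1 := by
      rw [← ZMod.intCast_zmod_eq_zero_iff_dvd]
      push_cast
      have : ((a : ℤ) : ZMod p) = 1 := h1
      rw [this]; simp
    obtain ⟨c, hc⟩ := h2
    have h3 : ((-1 : AddMonoid.End (Additive (R →* A))) ^ (p - 1 - i) * (((p - 1).choose i : ℕ) : AddMonoid.End (Additive (R →* A)))) =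
        ((a : ℤ) : AddMonoid.End (Additive (R →* A))) := by
      rw [ha]; push_cast; rfl
    rw [mul_assoc, h3]
    show ((precomp σ) ^ i) (((a : ℤ) : AddMonoid.End (Additive (R →* A))) m₀) = _
    congr 1
    rw [AddMonoid.End.intCast_apply]
    have ha1 : a = 1 + (p : ℤ) * c := by linarith
    rw [ha1, add_smul, one_smul, mul_smul]
    have : (p : ℤ) • (c • m₀) = c • ((p : ℤ) • m₀) := smul_comm _ _ _
    rw [this, natCast_zsmul, hpm, smul_zero, add_zero]
  have h1 := sub_one_pow_apply (A := A) σ (p - 1) m₀ y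
  rw [hbin] at h1
  have h2 : (∑ i ∈ Finset.range p, (precomp σ) ^ i * (-1) ^ (p - 1 - i) * (((p - 1).choose i : ℕ) : AddMonoid.End (Additive (R →* A))) : AddMonoid.End (Additive (R →* A))) m₀ =
      ∑ i ∈ Finset.range p, ((precomp σ) ^ i) m₀ := by
    exact (AddMonoidHom.finset_sum_apply _ _ _).trans (Finset.sum_congr rfl hterm)
  rw [h2] at h1
  have h3 : (Additive.toMul (∑ i ∈ Finset.range p, ((precomp σ) ^ i) m₀)) y =
      ∏ i ∈ Finset.range p, (Additive.toMul (((precomp σ) ^ i) m₀)) y := by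
    rw [toMul_sum, MonoidHom.finset_prod_apply]
  rw [h3] at h1
  rw [← show (Additive.toMul m₀) ((fun w => w⁻¹ * σ w)^[p - 1] y) = μ _ from rfl, ← h1]
  refine Finset.prod_congr rfl fun i _ => ?_
  rw [precomp_pow_apply]
  rfl

end Iter

section Conj

variable {P : Type u} [Group P] {A : Type v} [CommGroup A]

/-- The identity in a group: the norm of a function multiplicative on `R`. -/
theorem norm_eq_iter {p : ℕ} [hp : Fact p.Prime] (R : Subgroup P) (z : P)
    (hzR : ∀ y ∈ R, z⁻¹ * y * z ∈ R) (f : P → A) (hf : ∀ a ∈ R, ∀ b ∈ R, f (a * b) = f a * f b)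
    (hfp : ∀ a ∈ R, f a ^ p = 1) {y : P} (hy : y ∈ R) :
    ∏ i ∈ Finset.range p, f ((z ^ i)⁻¹ * y * z ^ i) = f ((fun w => w⁻¹ * z⁻¹ * w * z)^[p - 1] y) := by
  classical
  let σ : R →* R :=
    { toFun := fun a => ⟨z⁻¹ * a * z, hzR a a.2⟩
      map_one' := Subtype.ext (by simp)
      map_mul' := fun a b => Subtype.ext (by simp [mul_assoc]) }
  let μ : R →* A :=
    { toFun := fun a => f a
      map_one' := by
        have := hf 1 R.one_mem 1 R.one_mem
        simp only [mul_one] at this
        simpa using this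
      map_mul' := fun a b => hf a a.2 b b.2 }
  have hcoe1 : ∀ (i : ℕ) (a : R), ((σ^[i] a : R) : P) = (z ^ i)⁻¹ * a * z ^ i := by
    intro i a
    induction i with
    | zero => simp
    | succ i ih =>
      rw [Function.iterate_succ_apply']
      show z⁻¹ * ((σ^[i] a : R) : P) * z = _
      rw [ih, pow_succ]
      group
  have hcoe2 : ∀ (k : ℕ) (a : R), (((fun w => w⁻¹ * σ w)^[k] a : R) : P) =
      (fun w => w⁻¹ * z⁻¹ * w * z)^[k] (a : P) := by
    intro k a
    induction k with
    | zero => rfl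
    | succ k ih =>
      rw [Function.iterate_succ_apply', Function.iterate_succ_apply', ← ih]
      show ((((fun w => w⁻¹ * σ w)^[k] a : R) : P))⁻¹ * (z⁻¹ * (((fun w => w⁻¹ * σ w)^[k] a : R) : P) * z) = _
      simp only [mul_assoc]
  have h := iter_norm σ μ (fun a => hfp a a.2) ⟨y, hy⟩
  have h1 : f ((fun w => w⁻¹ * z⁻¹ * w * z)^[p - 1] y) = μ ((fun w => w⁻¹ * σ w)^[p - 1] ⟨y, hy⟩) := by
    show _ = f (((fun w => w⁻¹ * σ w)^[p - 1] ⟨y, hy⟩ : R) : P)
    rw [hcoe2]
  rw [h1, h]
  refine Finset.prod_congr rfl fun i _ => ?_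
  show _ = f ((σ^[i] ⟨y, hy⟩ : R) : P)
  rw [hcoe1]

end Conj

end Cfsg.Agent.Lib.Yoshida
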