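/-
The norm hypothesis from the Wielandt commutator condition.
-/
import Cfsg.Agent.Lib.Yoshida.Norm
import Cfsg.Agent.Lib.Amalgam.ResOf
import Mathlib

set_option autoImplicit false

namespace Cfsg.Agent.Lib.Yoshida

universe u v

variable {G : Type u} [Group G] [Finite G] {p : ℕ} [hp : Fact p.Prime]

theorem nv_of_wielandt {S W : Subgroup G} (hWS : W ≤ S) (hWn : (W.subgroupOf S).Normal)
    (hH : ∀ x ∈ S, ∀ z ∈ W, ∀ W₀ : Subgroup ↥W, IsCoatom W₀ →
      (fun y : G => y⁻¹ * z⁻¹ * y * z)^[p - 1] x ∈ W₀.map W.subtype →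
      (fun y : G => y⁻¹ * z⁻¹ * y * z)^[p - 1] x ∈ ((frattini ↥W₀).map W₀.subtype).map W.subtype)
    (A : Type v) [CommGroup A] : NV p (W.subgroupOf S) A := by
  classical
  intro R z hzW hzR hσ hzp hgen f hf hfp y hy
  rw [norm_eq_iter R z hσ f hf hfp hy]
  set F : S → S := fun w => w⁻¹ * z⁻¹ * w * z with hF
  set c : S := F^[p - 1] y with hc
  have hFR : ∀ w ∈ R, F w ∈ R := fun w hw => by
    have : F w = w⁻¹ * (z⁻¹ * w * z) := by simp [hF, mul_assoc]
    rw [this]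
    exact R.mul_mem (R.inv_mem hw) (hσ w hw)
  have hiterR : ∀ k : ℕ, F^[k] y ∈ R := fun k => by
    induction k with
    | zero => exact hy
    | succ k ih =>
      rw [Function.iterate_succ_apply']
      exact hFR _ ih
  have hcR : c ∈ R := hiterR _
  have hppos : 0 < p - 1 := Nat.sub_pos_of_lt hp.out.one_lt
  have hcW : c ∈ W.subgroupOf S := by
    obtain ⟨n, hn⟩ : ∃ n, p - 1 = n + 1 := ⟨p - 2, by omega⟩
    rw [hc, hn, Function.iterate_succ_apply']
    set w := F^[n] y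
    have h1 : F w = (w⁻¹ * z⁻¹ * w⁻¹⁻¹) * z := by simp [hF]
    rw [h1]
    exact Subgroup.mul_mem _ (hWn.conj_mem _ (Subgroup.inv_mem _ hzW) _) hzW
  have hcoe : ∀ k : ℕ, ((F^[k] y : S) : G) =
      (fun a : G => a⁻¹ * (z : G)⁻¹ * a * z)^[k] (y : G) := fun k => by
    induction k with
    | zero => rfl
    | succ k ih =>
      rw [Function.iterate_succ_apply', Function.iterate_succ_apply', ← ih]
      simp [hF]
  -- the maximal subgroup of `W`
  let W₀ : Subgroup ↥W := (R.map S.subtype).subgroupOf W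
  have hmemW₀ : ∀ w : W, w ∈ W₀ ↔ (⟨w, hWS w.2⟩ : S) ∈ R := fun w => by
    constructor
    · rintro ⟨a, ha, h⟩
      have : a = ⟨w, hWS w.2⟩ := Subtype.ext h
      exact this ▸ ha
    · exact fun h => ⟨_, h, rfl⟩
  let zh : W := ⟨z, hzW⟩
  have hzh : zh ∉ W₀ := fun h => hzR ((hmemW₀ zh).mp h)
  have hpowmem : ∀ i : ℕ, ((zh ^ i : W) : G) = ((z ^ i : S) : G) := fun i => by simp [zh]
  have hgen' : ∀ w : W, ∃ i : ℕ, zh ^ i * w ∈ W₀ := fun w => by
    obtain ⟨i, hi⟩ := hgen ⟨w, hWS w.2⟩ w.2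
    refine ⟨i, (hmemW₀ _).mpr ?_⟩
    convert hi using 1
    exact Subtype.ext (by simp [zh])
  have hzhp : zh ^ p ∈ W₀ := (hmemW₀ _).mpr (by
    convert hzp using 1
    exact Subtype.ext (by simp [zh]))
  have hW₀ : IsCoatom W₀ := by
    refine ⟨fun h => hzh (h ▸ Subgroup.mem_top zh), fun K hK => ?_⟩
    obtain ⟨v, hvK, hvW⟩ := SetLike.exists_of_lt hK
    obtain ⟨i, hi⟩ := hgen' v
    have hzi : zh ^ i ∈ K := by
      have h1 : zh ^ i * v ∈ K := hK.le hi
      have h2 : zh ^ i = zh ^ i * v * v⁻¹ := by group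
      rw [h2]; exact K.mul_mem h1 (K.inv_mem hvK)
    have hzpK : zh ^ p ∈ K := hK.le hzhp
    have hcop : Nat.Coprime i p := by
      refine ((Nat.Prime.coprime_iff_not_dvd hp.out).mpr ?_).symm
      rintro ⟨m, rfl⟩
      apply hvW
      have h1 : zh ^ (p * m) ∈ W₀ := by rw [pow_mul]; exact W₀.pow_mem hzhp m
      have h2 : v = (zh ^ (p * m))⁻¹ * (zh ^ (p * m) * v) := by group
      rw [h2]; exact W₀.mul_mem (W₀.inv_mem h1) hi
    have hzK : zh ∈ K := by
      have h1 : zh = (zh ^ i) ^ (Nat.gcdA i p) * (zh ^ p) ^ (Nat.gcdB i p) := by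
        rw [← zpow_natCast, ← zpow_natCast, ← zpow_mul, ← zpow_mul, ← zpow_add,
          ← Nat.gcd_eq_gcd_ab, hcop, Nat.cast_one, zpow_one]
      rw [h1]
      exact K.mul_mem (K.zpow_mem hzi _) (K.zpow_mem hzpK _)
    rw [eq_top_iff]
    intro w _
    obtain ⟨j, hj⟩ := hgen' w
    have h1 : zh ^ j * w ∈ K := hK.le hj
    have h2 : w = (zh ^ j)⁻¹ * (zh ^ j * w) := by group
    rw [h2]; exact K.mul_mem (K.inv_mem (K.pow_mem hzK j)) h1
  -- apply the hypothesis
  have hcW' : (c : G) ∈ W := hcW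
  have hcW₀ : (⟨c, hcW'⟩ : W) ∈ W₀ := (hmemW₀ _).mpr hcR
  have hH' := hH y y.2 z hzW W₀ hW₀ (by
    rw [← (hcoe (p - 1))]
    exact ⟨_, hcW₀, rfl⟩)
  rw [← hcoe (p - 1)] at hH'
  obtain ⟨_, ⟨e, he, rfl⟩, he2⟩ := hH'
  -- the homomorphism on `W₀`
  let φ : W₀ →* A :=
    { toFun := fun a => f ⟨((a : W) : G), hWS (a : W).2⟩
      map_one' := by
        have := hf 1 R.one_mem 1 R.one_mem
        simp only [mul_one] at this
        have h2 : f 1 = 1 := by simpa using this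
        exact h2
      map_mul' := fun a b => by
        have ha := (hmemW₀ _).mp a.2
        have hb := (hmemW₀ _).mp b.2
        exact hf _ ha _ hb }
  have hker : frattini ↥W₀ ≤ φ.ker := by
    refine Cfsg.Agent.Lib.Amalgam.frattini_le_of_elementary_quotient (p := p) _ (fun a b => ?_) (fun a => ?_)
    · rw [MonoidHom.mem_ker, map_commutatorElement, commutatorElement_eq_one_iff_mul_comm]
      exact mul_comm _ _
    · rw [MonoidHom.mem_ker, map_pow]
      exact hfp _ ((hmemW₀ _).mp a.2)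
  have h1 : φ e = 1 := hker he
  have h2 : (⟨((e : W₀) : W), hWS ((e : W₀) : W).2⟩ : S) = c := Subtype.ext he2
  rw [← h2]
  exact h1

end Cfsg.Agent.Lib.Yoshida
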