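/-
A nonvanishing norm on a maximal subgroup gives a surjection onto the Sylow `p`-subgroup of `Sym(p²)`,
the wreath product of two cyclic groups of order `p`.
-/
import Cfsg.Agent.Lib.Yoshida.Norm
import Mathlib

set_option autoImplicit false

namespace Cfsg.Agent.Lib.Yoshida

universe u v

/-- Separation in an elementary abelian group. -/
theorem exists_sep {B : Type*} [CommGroup B] {p : ℕ} [hp : Fact p.Prime] (hB : ∀ b : B, b ^ p = 1)
    {a : B} (ha : a ≠ 1) : ∃ χ : B →* Multiplicative (ZMod p), χ a ≠ 1 := by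
  classical
  letI inst : Module (ZMod p) (Additive B) := AddCommGroup.zmodModule (n := p) (G := Additive B)
    (fun x => by
      apply Additive.toMul.injective
      exact hB (Additive.toMul x))
  have hx : Additive.ofMul a ≠ 0 := fun h => ha (Additive.ofMul.injective h)
  haveI h1 : @Module.Free (ZMod p) (Additive B) _ _ inst := @Module.Free.of_divisionRing (ZMod p) (Additive B) _ _ inst
  haveI h2 : @Module.Projective (ZMod p) _ (Additive B) _ inst := @Module.Projective.of_free (ZMod p) _ (Additive B) _ inst h1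
  obtain ⟨φ, hφ⟩ := @Module.Projective.exists_dual_ne_zero (Additive B) _ (ZMod p) _ inst h2 (Additive.ofMul a) hx
  let χ₀ : Additive B →+ ZMod p := (show Additive B →ₗ[ZMod p] ZMod p from φ).toAddMonoidHom
  have hχ₀ : χ₀ (Additive.ofMul a) ≠ 0 := hφ
  refine ⟨{ toFun := fun b => Multiplicative.ofAdd (χ₀ (Additive.ofMul b))
            map_one' := by simp
            map_mul' := fun x y => by
              have : Additive.ofMul (x * y) = Additive.ofMul x + Additive.ofMul y := rfl
              rw [this, map_add]; rfl }, ?_⟩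
  exact fun h => hχ₀ (Multiplicative.ofAdd.injective h)

/-- Strict inclusions in a `p`-group lose at least a factor `p`. -/
theorem card_mul_le_of_lt {X : Type*} [Group X] [Finite X] {p : ℕ} [hp : Fact p.Prime]
    (hX : IsPGroup p X) {H K : Subgroup X} (h : H < K) : Nat.card H * p ≤ Nat.card K := by
  obtain ⟨a, ha⟩ := IsPGroup.iff_card.mp (hX.to_subgroup H)
  obtain ⟨b, hb⟩ := IsPGroup.iff_card.mp (hX.to_subgroup K)
  have hlt : Nat.card H < Nat.card K := by
    refine lt_of_le_of_ne (Subgroup.card_le_of_le h.le) (fun he => ?_)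
    exact h.ne (Subgroup.eq_of_le_of_card_ge h.le he.ge)
  rw [ha, hb] at hlt ⊢
  have hab : a < b := (Nat.pow_lt_pow_iff_right hp.out.one_lt).mp hlt
  rw [← pow_succ]
  exact Nat.pow_le_pow_right hp.out.pos hab

section Main

variable {P : Type u} [Group P] [Finite P] {p : ℕ} [hp : Fact p.Prime]

/-- Conjugation by `z` on a subgroup it maps into itself. -/
def conjH (R : Subgroup P) (z : P) (hσ : ∀ y ∈ R, z⁻¹ * y * z ∈ R) : R →* R where
  toFun a := ⟨z⁻¹ * a * z, hσ a a.2⟩
  map_one' := Subtype.ext (by simp)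
  map_mul' a b := Subtype.ext (by simp [mul_assoc])

theorem conjH_iter (R : Subgroup P) (z : P) (hσ : ∀ y ∈ R, z⁻¹ * y * z ∈ R) (i : ℕ) (a : R) :
    (((conjH R z hσ)^[i] a : R) : P) = (z ^ i)⁻¹ * a * z ^ i := by
  induction i with
  | zero => simp
  | succ i ih =>
    rw [Function.iterate_succ_apply']
    show z⁻¹ * (((conjH R z hσ)^[i] a : R) : P) * z = _
    rw [ih, pow_succ]
    group

/-- The Sylow subgroups of `Sym(p²)` have order `p^(p+1)`. -/
theorem card_sylow_perm (Q : Sylow p (Equiv.Perm (Fin (p ^ 2)))) : Nat.card Q = p ^ (p + 1) := by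
  rw [Sylow.card_eq_multiplicity]
  have h1 : Nat.card (Equiv.Perm (Fin (p ^ 2))) = (p * p).factorial := by
    rw [Nat.card_eq_fintype_card, Fintype.card_perm, Fintype.card_fin, sq]
  rw [h1, Nat.factorization_factorial_mul hp.out]
  have h2 : (p.factorial).factorization p = 1 := by
    have := Nat.factorization_factorial_mul (n := 1) hp.out
    simpa using this
  rw [h2, add_comm]

/-- The permutation representation on the cosets of a subgroup of index `p²` whose kernel has
index at least `p^(p+1)` is onto a Sylow subgroup of `Sym(p²)`. -/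
theorem exists_surj_of_index (hP : IsPGroup p P) (K U : Subgroup P) (hK : K.index = p ^ 2)
    (hU : U = (MulAction.toPermHom P (P ⧸ K)).ker) (hUi : p ^ (p + 1) ≤ U.index) :
    ∃ (Q : Sylow p (Equiv.Perm (Fin (p ^ 2)))) (f : P →* Q), Function.Surjective f := by
  classical
  have hcard : Nat.card (P ⧸ K) = p ^ 2 := by rw [← Subgroup.index_eq_card, hK]
  let e : P ⧸ K ≃ Fin (p ^ 2) := Finite.equivFinOfCardEq hcard
  let ρ : P →* Equiv.Perm (Fin (p ^ 2)) :=
    (e.permCongrHom.toMonoidHom).comp (MulAction.toPermHom P (P ⧸ K))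
  have hker : ρ.ker = U := by
    rw [hU]
    ext g
    simp only [MonoidHom.mem_ker, ρ, MonoidHom.comp_apply]
    show e.permCongrHom _ = 1 ↔ _
    rw [MulEquiv.map_eq_one_iff]
  have hr : Nat.card ρ.range = U.index := by rw [← hker, Subgroup.index_ker]
  have hpg : IsPGroup p ρ.range := hP.of_surjective ρ.rangeRestrict ρ.rangeRestrict_surjective
  obtain ⟨Q, hQ⟩ := hpg.exists_le_sylow
  have h1 : ρ.range = Q := by
    refine Subgroup.eq_of_le_of_card_ge hQ ?_
    rw [card_sylow_perm, hr]
    exact hUi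
  refine ⟨Q, ρ.codRestrict (Q : Subgroup _) (fun g => hQ ⟨g, rfl⟩), ?_⟩
  rintro ⟨x, hx⟩
  have hx' : x ∈ ρ.range := by rw [h1]; exact hx
  obtain ⟨g, hg⟩ := hx'
  exact ⟨g, Subtype.ext hg⟩

/-- A nonvanishing norm gives the wreath product as a quotient. -/
theorem exists_surj_of_norm (hP : IsPGroup p P) (R : Subgroup P) (z : P) (hzR : z ∉ R)
    (hσ : ∀ y ∈ R, z⁻¹ * y * z ∈ R) (hzp : z ^ p ∈ R) (hgen : ∀ w : P, ∃ i : ℕ, z ^ i * w ∈ R)
    (μ₀ : R →* Multiplicative (ZMod p)) (y : R)
    (hne : μ₀ ((fun w => w⁻¹ * conjH R z hσ w)^[p - 1] y) ≠ 1) :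
    ∃ (Q : Sylow p (Equiv.Perm (Fin (p ^ 2)))) (f : P →* Q), Function.Surjective f := by
  classical
  set σ : R →* R := conjH R z hσ with hσdef
  set C : R → R := fun w => w⁻¹ * σ w with hC
  have hpos := hp.out.pos
  have hRp : IsPGroup p R := hP.to_subgroup R
  -- the homomorphisms `ψ k`
  let ψ : ℕ → (R →* Multiplicative (ZMod p)) := fun k =>
    Additive.toMul (((precomp σ - 1) ^ k) (Additive.ofMul μ₀))
  have hψ : ∀ k a, ψ k a = μ₀ (C^[k] a) := fun k a => sub_one_pow_apply σ k (Additive.ofMul μ₀) a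
  have hM : ∀ x : Multiplicative (ZMod p), x ^ p = 1 := fun x => by
    have hc : Nat.card (Multiplicative (ZMod p)) = p := by
      simp [Nat.card_eq_fintype_card, ZMod.card]
    have h0 := pow_card_eq_one' (x := x)
    rwa [hc] at h0
  have hp0 : ∀ a, μ₀ a ^ p = 1 := fun a => hM _
  -- `C^[p]` is killed
  have hCp : ∀ a, μ₀ (C^[p] a) = 1 := by
    intro a
    have e : C^[p] a = C^[p - 1] (C a) := by
      have h0 : C^[(p - 1) + 1] a = C^[p - 1] (C a) := Function.iterate_succ_apply C (p - 1) a
      have h00 : (p - 1) + 1 = p := Nat.sub_add_cancel hpos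
      rwa [h00] at h0
    rw [e]
    have h1 := iter_norm σ μ₀ hp0 (C a)
    rw [show (fun w => w⁻¹ * σ w) = C from rfl] at h1
    rw [h1]
    have h2 : ∀ i, μ₀ (σ^[i] (C a)) = μ₀ (σ^[i + 1] a) / μ₀ (σ^[i] a) := by
      intro i
      rw [hC]
      simp only
      rw [iterate_map_mul, iterate_map_inv, map_mul, map_inv, Function.iterate_succ_apply,
        div_eq_mul_inv, mul_comm]
    rw [Finset.prod_congr rfl (fun i _ => h2 i), Finset.prod_range_div
      (fun i => μ₀ (σ^[i] a)) p]
    have h3 : σ^[p] a = (⟨z ^ p, hzp⟩ : R)⁻¹ * a * ⟨z ^ p, hzp⟩ := Subtype.ext (by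
      rw [hσdef, conjH_iter]; simp)
    rw [h3, map_mul, map_mul, map_inv, mul_comm _ (μ₀ a), mul_assoc]
    simp
  have hCk : ∀ k, p ≤ k → ∀ a, μ₀ (C^[k] a) = 1 := by
    intro k hk a
    have : C^[k] a = C^[p] (C^[k - p] a) := by
      rw [← Function.iterate_add_apply, Nat.add_sub_cancel' hk]
    rw [this]; exact hCp _
  -- the chain of subgroups
  let L : ℕ → Subgroup R := fun j => ⨅ i : ℕ, ⨅ _ : j ≤ i ∧ i < p, (ψ i).ker
  have memL : ∀ j a, a ∈ L j ↔ ∀ i, j ≤ i → i < p → μ₀ (C^[i] a) = 1 := by
    intro j a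
    simp only [L, Subgroup.mem_iInf, MonoidHom.mem_ker, hψ]
    exact ⟨fun h i h1 h2 => h i ⟨h1, h2⟩, fun h i h1 => h i h1.1 h1.2⟩
  have hchain : ∀ d, d ≤ p → Nat.card (L (p - d)) * p ^ d ≤ Nat.card R := by
    intro d
    induction d with
    | zero =>
      intro _
      simpa using Subgroup.card_le_card_group (L p)
    | succ d ih =>
      intro hd
      have h1 := ih (by omega)
      set j := p - (d + 1) with hj
      have hj1 : p - d = j + 1 := by omega
      rw [hj1] at h1
      have hlt : L j < L (j + 1) := by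
        rw [SetLike.lt_iff_le_and_exists]
        constructor
        · intro a ha
          rw [memL] at ha ⊢
          exact fun i h2 h3 => ha i (by omega) h3
        · refine ⟨C^[p - 1 - j] y, ?_, ?_⟩
          · rw [memL]
            intro i h2 h3
            rw [← Function.iterate_add_apply]
            exact hCk _ (by omega) _
          · rw [memL]
            intro h2
            have h3 := h2 j le_rfl (by omega)
            rw [← Function.iterate_add_apply, show j + (p - 1 - j) = p - 1 by omega] at h3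
            exact hne h3
      have h2 := card_mul_le_of_lt hRp hlt
      calc Nat.card (L j) * p ^ (d + 1) = (Nat.card (L j) * p) * p ^ d := by ring
        _ ≤ Nat.card (L (j + 1)) * p ^ d := Nat.mul_le_mul_right _ h2
        _ ≤ Nat.card R := h1
  -- the index of `R`
  have hidxR : R.index = p := by
    have hsurj : Function.Surjective (fun i : Fin p => ((z ^ (i : ℕ) : P) : P ⧸ R)) := by
      intro q
      induction q using QuotientGroup.induction_on with
      | H w =>
        obtain ⟨i, hi⟩ := hgen w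
        obtain ⟨k, hk, t, ht⟩ : ∃ k < p, ∃ t, k + i = p * t := by
          by_cases h0 : i % p = 0
          · exact ⟨0, hpos, i / p, by
              have := Nat.div_add_mod i p
              rw [h0] at this; omega⟩
          · refine ⟨p - i % p, by omega, i / p + 1, ?_⟩
            have h1 := Nat.div_add_mod i p
            have h2 := Nat.mod_lt i hpos
            rw [Nat.mul_add, Nat.mul_one]
            omega
        refine ⟨⟨k, hk⟩, ?_⟩
        refine QuotientGroup.eq.mpr ?_
        have h1 : (z ^ k)⁻¹ * w = ((z ^ p) ^ t)⁻¹ * (z ^ i * w) := by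
          rw [← pow_mul, ← ht, pow_add]; group
        rw [h1]
        exact R.mul_mem (R.inv_mem (R.pow_mem hzp t)) hi
    have hle : R.index ≤ p := by
      rw [Subgroup.index_eq_card]
      have := Nat.card_le_card_of_surjective _ hsurj
      simpa using this
    have hne1 : R.index ≠ 1 := fun h => hzR (by
      rw [Subgroup.index_eq_one.mp h]; trivial)
    obtain ⟨n, hn⟩ := IsPGroup.iff_card.mp hP
    have hdvd : R.index ∣ p ^ n := by
      rw [← hn]; exact Subgroup.index_dvd_card R
    obtain ⟨a, _, ha⟩ := (Nat.dvd_prime_pow hp.out).mp hdvd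
    have ha0 : a ≠ 0 := by
      rintro rfl
      exact hne1 (by simpa using ha)
    have : p ≤ R.index := by
      rw [ha]
      exact Nat.le_self_pow ha0 p
    omega
  -- the kernel of `μ₀`
  have hidxK : μ₀.ker.index = p := by
    rw [Subgroup.index_ker]
    have hc : Nat.card (Multiplicative (ZMod p)) = p := by
      simp [Nat.card_eq_fintype_card, ZMod.card]
    have hd : Nat.card μ₀.range ∣ p := by
      have h0 := Subgroup.card_subgroup_dvd_card μ₀.range
      rwa [hc] at h0
    rcases (Nat.dvd_prime hp.out).mp hd with h | h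
    · exfalso
      have h1 : μ₀.range = ⊥ := Subgroup.card_eq_one.mp h
      apply hne
      have : μ₀ ((fun w => w⁻¹ * conjH R z hσ w)^[p - 1] y) ∈ μ₀.range := ⟨_, rfl⟩
      rw [h1] at this
      exact this
    · exact h
  set K : Subgroup P := μ₀.ker.map R.subtype with hK
  have hKi : K.index = p ^ 2 := by
    rw [hK, Subgroup.index_map_subtype, hidxK, hidxR, sq]
  -- the kernel of the action
  set U : Subgroup P := (MulAction.toPermHom P (P ⧸ K)).ker with hU
  haveI hUn : U.Normal := MonoidHom.normal_ker _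
  have hUK : U ≤ K := by
    intro u hu
    have h1 : MulAction.toPermHom P (P ⧸ K) u = 1 := hu
    have h2 := DFunLike.congr_fun h1 ((1 : P) : P ⧸ K)
    have h3 : ((u * 1 : P) : P ⧸ K) = ((1 : P) : P ⧸ K) := h2
    have h4 : (1 : P)⁻¹ * (u * 1) ∈ K := QuotientGroup.eq.mp h3.symm
    simpa using h4
  have hKR : K ≤ R := by
    rintro _ ⟨a, _, rfl⟩
    exact a.2
  have hUR : U ≤ R := hUK.trans hKR
  have hstay : ∀ (k : ℕ) (a : R), (a : P) ∈ U → ((C^[k] a : R) : P) ∈ U := by
    intro k a ha
    induction k with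
    | zero => exact ha
    | succ k ih =>
      rw [Function.iterate_succ_apply']
      set b := C^[k] a
      have h1 : ((C b : R) : P) = (b : P)⁻¹ * (z⁻¹ * b * z⁻¹⁻¹) := by
        simp [hC, hσdef, conjH, mul_assoc]
      rw [h1]
      exact U.mul_mem (U.inv_mem ih) (hUn.conj_mem _ ih _)
  have hval : ∀ a : R, (a : P) ∈ U → μ₀ a = 1 := by
    intro a ha
    obtain ⟨b, hb, he⟩ := hUK ha
    have : b = a := Subtype.ext he
    rw [← this]; exact hb
  have hUL : U.subgroupOf R ≤ L 0 := by
    intro a ha
    rw [memL]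
    intro i _ _
    exact hval _ (hstay i a ha)
  have hcardU : Nat.card U = Nat.card (U.subgroupOf R) :=
    Nat.card_congr (Subgroup.subgroupOfEquivOfLe hUR).toEquiv.symm
  have h1 : Nat.card U * p ^ p ≤ Nat.card R := by
    have h2 := hchain p le_rfl
    rw [Nat.sub_self] at h2
    refine le_trans (Nat.mul_le_mul_right _ ?_) h2
    rw [hcardU]
    exact Subgroup.card_le_of_le hUL
  have h3 : Nat.card U * U.index = Nat.card R * R.index := by
    rw [Subgroup.card_mul_index, Subgroup.card_mul_index]
  have hUi : p ^ (p + 1) ≤ U.index := by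
    have hUpos : 0 < Nat.card U := Nat.card_pos
    refine Nat.le_of_mul_le_mul_left ?_ hUpos
    rw [h3, hidxR, pow_succ, ← mul_assoc]
    exact Nat.mul_le_mul_right _ h1
  exact exists_surj_of_index hP K U hKi hU hUi

/-- The norm hypothesis when the wreath product is not a quotient. -/
theorem nv_of_no_wreath (hP : IsPGroup p P) (W : Subgroup P) (hW : W = ⊤)
    (hno : ¬ ∃ (Q : Sylow p (Equiv.Perm (Fin (p ^ 2)))) (f : P →* Q), Function.Surjective f)
    (A : Type v) [CommGroup A] : NV p W A := by
  classical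
  intro R z _ hzR hσ hzp hgen f hf hfp y hy
  by_contra hcon
  apply hno
  -- `f` as a homomorphism on `R`
  let μ : R →* A :=
    { toFun := fun a => f a
      map_one' := by
        have := hf 1 R.one_mem 1 R.one_mem
        simp only [mul_one] at this
        simpa using this
      map_mul' := fun a b => hf a a.2 b b.2 }
  have hμ : ∀ a, μ a ^ p = 1 := fun a => hfp a a.2
  set σ := conjH R z hσ with hσdef
  have h1 := iter_norm σ μ hμ ⟨y, hy⟩
  have h2 : μ ((fun w => w⁻¹ * σ w)^[p - 1] ⟨y, hy⟩) ≠ 1 := by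
    rw [h1]
    intro h3
    apply hcon
    rw [← h3]
    refine Finset.prod_congr rfl fun i _ => ?_
    show _ = f ((σ^[i] ⟨y, hy⟩ : R) : P)
    rw [hσdef, conjH_iter]
  -- separate
  have h3 : (μ.rangeRestrict ((fun w => w⁻¹ * σ w)^[p - 1] ⟨y, hy⟩)) ≠ 1 := fun h =>
    h2 (congrArg Subtype.val h)
  obtain ⟨χ, hχ⟩ := exists_sep (p := p) (B := μ.range) (by
    rintro ⟨_, a, rfl⟩
    exact Subtype.ext (hμ a)) h3
  refine exists_surj_of_norm hP R z hzR hσ hzp (fun w => hgen w (by rw [hW]; trivial))
    (χ.comp μ.rangeRestrict) ⟨y, hy⟩ hχ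

end Main

end Cfsg.Agent.Lib.Yoshida
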